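import Cfsg.Agent.H2.BG15d

/-! BG 15.4: nilpotent Hall subgroups. -/

set_option autoImplicit false

namespace Cfsg.Agent.H2

open Subgroup Cfsg
open Cfsg.Agent.L (cj nz SylIn sylIn_top)
open Cfsg.Agent.H14 (IsPiSub)
open Cfsg.Agent.OOT
open Cfsg.Agent.H21
open scoped Pointwise

universe u
variable {G : Type u} [Group G] [Finite G] (hG : IsMinSimpleOddOrder G)
include hG

/-- BG 15.4 -/
theorem nilpotent_hall_sigma {H : Subgroup G} (hHn : Group.IsNilpotent H)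
    (hHall : (Nat.card H).Coprime H.index) (hH1 : H ≠ ⊥) :
    ∃ M : Subgroup G, IsCoatom M ∧ H ≤ sigmaCore M := by
  have hHall' : (Nat.card H).Coprime (H.relIndex ⊤) := by rwa [relIndex_top_right]
  obtain ⟨p, hp, hpH⟩ := Nat.exists_prime_and_dvd (n := Nat.card H) (by rwa [Ne, Subgroup.card_eq_one])
  haveI hpF : Fact p.Prime := ⟨hp⟩
  have hSh := nil_piCore_hall hHn {p}
  obtain ⟨S, hS⟩ : ∃ S, S = piCoreOf {p} H := ⟨_, rfl⟩
  have hSn : H ≤ nz S := by rw [hS]; exact le_normalizer_piCoreOf _ _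
  rw [← hS] at hSh
  have hSH : SylIn p S H := sylIn_iff_hallOf.2 hSh
  have hStop : SylIn p S ⊤ := sylIn_of_hall le_top hHall' hpH hSH
  have hS1 : S ≠ ⊥ := by
    rintro rfl
    have := hSH.not_dvd
    rw [relIndex_bot_left] at this
    exact this hpH
  obtain ⟨M, hM, hSM⟩ := exists_coatom_of_nz hG hS1 (pgroup_ne_top hG hSH.isPGroup)
  have hHM : H ≤ M := hSn.trans hSM
  have hSM' : S ≤ M := (L.le_nz S).trans hSM
  have hSyl : SylIn p S M := hStop.of_le hSM' le_top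
  have hpM : p ∣ Nat.card M := hpH.trans (card_dvd_of_le hHM)
  have hps : p ∈ sigma M := ⟨hp, hpM, hSyl.toSylow, by rw [hSyl.map_toSylow]; exact hSM⟩
  have hSms : S ≤ sigmaCore M := le_ms hG hM hSM' (isPiSub_of_isPGroup hps hSH.isPGroup)
  have hScop : (Nat.card S).Coprime (S.relIndex (sigmaCore M)) :=
    OOT.IsPiHallOf.coprime (sylIn_iff_hallOf.1 (hSyl.of_le hSms (ms_le M)))
  refine ⟨M, hM, le_ms hG hM hHM ?_⟩
  intro q hq hd
  by_contra hqs
  haveI hqF : Fact q.Prime := ⟨hq⟩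
  have hqp : q ≠ p := by rintro rfl; exact hqs hps
  have hTh := nil_piCore_hall hHn {q}
  obtain ⟨T, hT⟩ : ∃ T, T = piCoreOf {q} H := ⟨_, rfl⟩
  rw [← hT] at hTh
  have hTH : SylIn q T H := sylIn_iff_hallOf.2 hTh
  have hTtop : SylIn q T ⊤ := sylIn_of_hall le_top hHall' hd hTH
  have hTM : SylIn q T M := hTtop.of_le (hTH.le.trans hHM) le_top
  have hTS : T ≤ centralizer (S : Set G) := by
    refine nil_cent hHn hTH.le hSH.le ?_
    obtain ⟨a, ha⟩ := IsPGroup.iff_card.1 hTH.isPGroup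
    obtain ⟨b, hb⟩ := IsPGroup.iff_card.1 hSH.isPGroup
    rw [ha, hb]
    exact Nat.Coprime.pow _ _ ((Nat.coprime_primes hq hp).2 hqp)
  obtain ⟨h1, h2⟩ := cent_hall_sub hG hM hSms hS1 hScop (hTH.le.trans hHM) hTS
    (isPiSub_of_isPGroup (π := {p | p ∉ sigma M}) hqs hTH.isPGroup)
  have hqT : q ∣ Nat.card T := by
    by_contra hn
    have := hTH.not_dvd
    rw [← L.card_mul_relIndex hTH.le] at hd
    exact (hq.dvd_mul.1 hd).elim hn this
  exact (h2 q hq hqT).2.2.2 ((pRankLE_sylIn hTM).1 (pRankLE_one_of_cyclic hq h1))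

theorem row1384 {H : Subgroup G} (hHn : Group.IsNilpotent H) (hHall : (Nat.card H).Coprime H.index) :
    ∀ x ∈ H, ∀ g : G, g * x * g⁻¹ ∈ H →
      ∃ n ∈ Subgroup.normalizer (H : Set G), n * x * n⁻¹ = g * x * g⁻¹ := by
  intro x hx g hg
  by_cases hH1 : H = ⊥
  · subst hH1
    refine ⟨1, one_mem _, ?_⟩
    rw [Subgroup.mem_bot] at hx hg
    rw [hg, hx]; group
  · obtain ⟨M, hM, hHM⟩ := nilpotent_hall_sigma hG hHn hHall hH1
    have hc : (Nat.card H).Coprime (H.relIndex (sigmaCore M)) :=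
      Nat.Coprime.coprime_dvd_right (relIndex_dvd_index_of_le hHM) hHall
    obtain ⟨n, hn, h2⟩ := row1438b hG hM hHM hc x hx g hg
    exact ⟨n, hn.2, h2⟩

end Cfsg.Agent.H2
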