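import Mathlib
import Cfsg.Prelude
import Cfsg.Agent.H2.Basic

/-!
# The commuting graph of Klein four-subgroups and the `2`-generated core
-/

set_option autoImplicit false
set_option linter.all false

namespace Cfsg.Agent.H2.FourCon

open Subgroup

universe u

/-- Klein four-subgroup, elementary form -/
def K4 {G : Type*} [Group G] (U : Subgroup G) : Prop := Nat.card U = 4 ∧ ∀ x ∈ U, x * x = 1

theorem K4_iff {G : Type*} [Group G] (U : Subgroup G) : IsKleinFour U ↔ K4 U := by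
  constructor
  · intro h
    refine ⟨h.card_four, fun x hx => ?_⟩
    have := IsKleinFour.mul_self (⟨x, hx⟩ : U)
    exact congrArg Subtype.val this
  · rintro ⟨h1, h2⟩
    refine ⟨h1, ?_⟩
    have h3 : Monoid.exponent U ∣ 2 := by
      apply Monoid.exponent_dvd_of_forall_pow_eq_one
      rintro ⟨x, hx⟩
      apply Subtype.ext
      show x ^ 2 = 1
      rw [pow_two, h2 x hx]
    rcases (Nat.dvd_prime Nat.prime_two).1 h3 with h4 | h4
    · exfalso
      rw [Monoid.exp_eq_one_iff] at h4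
      have h5 : Nat.card U = 1 := Nat.card_unique
      omega
    · exact h4

theorem exists_K4 {G : Type*} [Group G] [Finite G] (h : ¬ Cfsg.PRankLE 2 1 G) : ∃ V : Subgroup G, K4 V := by
  unfold Cfsg.PRankLE at h
  push Not at h
  obtain ⟨A, hA, hA2, hAc⟩ := h
  have hAp : IsPGroup 2 A := by
    intro a
    refine ⟨1, ?_⟩
    rw [pow_one]
    exact Subtype.ext (hA2 a a.2)
  obtain ⟨n, hn⟩ := IsPGroup.iff_card.1 hAp
  have hn2 : 2 ≤ n := by
    by_contra hcon
    have : n ≤ 1 := by omega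
    have : (2 : ℕ) ^ n ≤ 2 ^ 1 := Nat.pow_le_pow_right (by norm_num) this
    omega
  have h4 : 2 ^ 2 ∣ Nat.card A := by rw [hn]; exact pow_dvd_pow 2 hn2
  haveI : Fact (Nat.Prime 2) := ⟨Nat.prime_two⟩
  obtain ⟨K, hK⟩ := Sylow.exists_subgroup_card_pow_prime 2 h4
  refine ⟨K.map A.subtype, ?_, ?_⟩
  · rw [Nat.card_congr (K.equivMapOfInjective _ A.subtype_injective).symm.toEquiv, hK]; norm_num
  · rintro _ ⟨a, ha, rfl⟩
    have := hA2 a a.2
    rw [pow_two] at this
    exact this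

/-- the four-subgroups inside a subgroup -/
theorem exists_K4_le {G : Type*} [Group G] [Finite G] {Q : Subgroup G} (h : ¬ Cfsg.PRankLE 2 1 Q) :
    ∃ V : Subgroup G, V ≤ Q ∧ K4 V := by
  obtain ⟨V, hV1, hV2⟩ := exists_K4 h
  refine ⟨V.map Q.subtype, map_subtype_le _, ?_, ?_⟩
  · rw [Nat.card_congr (V.equivMapOfInjective _ Q.subtype_injective).symm.toEquiv, hV1]
  · rintro _ ⟨a, ha, rfl⟩
    exact congrArg Subtype.val (hV2 a ha)

theorem not_rank_of_K4 {G : Type*} [Group G] [Finite G] {Q V : Subgroup G} (hVQ : V ≤ Q) (hV : K4 V) :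
    ¬ Cfsg.PRankLE 2 1 Q := by
  intro h
  have hcomm : ∀ a ∈ V, ∀ b ∈ V, a * b = b * a := by
    intro a ha b hb
    have h1 := hV.2 a ha
    have h2 := hV.2 b hb
    have h3 := hV.2 (a * b) (mul_mem ha hb)
    calc a * b = a * (a * b * (a * b)) * b := by rw [h3]; group
      _ = (a * a) * (b * a) * (b * b) := by group
      _ = b * a := by rw [h1, h2]; group
  have h1 := h (V.subgroupOf Q) ⟨⟨fun a b => Subtype.ext (Subtype.ext (hcomm _ a.2 _ b.2))⟩⟩ (by
    intro a ha
    apply Subtype.ext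
    show (a : G) ^ 2 = 1
    rw [pow_two]; exact hV.2 a ha)
  rw [Nat.card_congr (subgroupOfEquivOfLe hVQ).toEquiv, hV.1] at h1
  omega

section
variable {G : Type u} [Group G] [Finite G]

/-- conjugate subgroup -/
def cj (g : G) (H : Subgroup G) : Subgroup G := H.map (MulAut.conj g).toMonoidHom

omit [Finite G] in
theorem mem_cj {g x : G} {H : Subgroup G} : x ∈ cj g H ↔ g⁻¹ * x * g ∈ H := by
  constructor
  · rintro ⟨h, hh, rfl⟩
    have : g⁻¹ * (g * h * g⁻¹) * g = h := by group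
    show g⁻¹ * (g * h * g⁻¹) * g ∈ H
    rw [this]; exact hh
  · intro h
    exact ⟨_, h, by show g * (g⁻¹ * x * g) * g⁻¹ = x; group⟩

omit [Finite G] in
theorem cj_mul (g h : G) (H : Subgroup G) : cj (g * h) H = cj g (cj h H) := by
  ext x
  rw [mem_cj, mem_cj, mem_cj]
  have : (g * h)⁻¹ * x * (g * h) = h⁻¹ * (g⁻¹ * x * g) * h := by group
  rw [this]

omit [Finite G] in
theorem cj_one (H : Subgroup G) : cj 1 H = H := by
  ext x; rw [mem_cj]; simp

omit [Finite G] in
theorem cj_mono (g : G) {H K : Subgroup G} (h : H ≤ K) : cj g H ≤ cj g K := map_mono h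

omit [Finite G] in
theorem card_cj (g : G) (H : Subgroup G) : Nat.card (cj g H) = Nat.card H :=
  Nat.card_congr (H.equivMapOfInjective _ (MulAut.conj g).injective).symm.toEquiv

omit [Finite G] in
theorem cj_eq_of_mem {g : G} {H : Subgroup G} (h : g ∈ normalizer (H : Set G)) : cj g H = H :=
  mem_normalizer_iff_map_conj_eq.1 h

omit [Finite G] in
theorem cj_K4 (g : G) {V : Subgroup G} (h : K4 V) : K4 (cj g V) := by
  refine ⟨by rw [card_cj]; exact h.1, ?_⟩
  rintro _ ⟨a, ha, rfl⟩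
  show (g * a * g⁻¹) * (g * a * g⁻¹) = 1
  have : (g * a * g⁻¹) * (g * a * g⁻¹) = g * (a * a) * g⁻¹ := by group
  rw [this, h.2 a ha]; group

/-- adjacency -/
def R (A B : Subgroup G) : Prop := K4 A ∧ K4 B ∧ ∀ a ∈ A, ∀ b ∈ B, a * b = b * a

omit [Finite G] in
theorem R_symm {A B : Subgroup G} (h : R A B) : R B A :=
  ⟨h.2.1, h.1, fun b hb a ha => (h.2.2 a ha b hb).symm⟩

omit [Finite G] in
theorem R_cj (g : G) {A B : Subgroup G} (h : R A B) : R (cj g A) (cj g B) := by
  refine ⟨cj_K4 g h.1, cj_K4 g h.2.1, ?_⟩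
  rintro _ ⟨a, ha, rfl⟩ _ ⟨b, hb, rfl⟩
  show (g * a * g⁻¹) * (g * b * g⁻¹) = (g * b * g⁻¹) * (g * a * g⁻¹)
  have e1 : (g * a * g⁻¹) * (g * b * g⁻¹) = g * (a * b) * g⁻¹ := by group
  have e2 : (g * b * g⁻¹) * (g * a * g⁻¹) = g * (b * a) * g⁻¹ := by group
  rw [e1, e2, h.2.2 a ha b hb]

/-- connectedness -/
def C (A B : Subgroup G) : Prop := Relation.ReflTransGen R A B

omit [Finite G] in
theorem C_symm {A B : Subgroup G} (h : C A B) : C B A := by
  induction h with
  | refl => exact Relation.ReflTransGen.refl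
  | tail _ h2 ih => exact Relation.ReflTransGen.head (R_symm h2) ih

omit [Finite G] in
theorem C_trans {A B D : Subgroup G} (h : C A B) (h' : C B D) : C A D := Relation.ReflTransGen.trans h h'

omit [Finite G] in
theorem C_cj (g : G) {A B : Subgroup G} (h : C A B) : C (cj g A) (cj g B) := by
  induction h with
  | refl => exact Relation.ReflTransGen.refl
  | tail _ h2 ih => exact Relation.ReflTransGen.tail ih (R_cj g h2)

/-- four-connectedness in terms of `C` -/
theorem isFourConnected_iff : Cfsg.IsFourConnected G ↔ ∀ U V : Subgroup G, K4 U → K4 V → C U V := by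
  unfold Cfsg.IsFourConnected C R
  simp only [K4_iff]

theorem C_of_le {S : Subgroup G} (hS : Cfsg.IsFourConnected S) {U V : Subgroup G} (hU : K4 U) (hV : K4 V)
    (hUS : U ≤ S) (hVS : V ≤ S) : C U V := by
  rw [isFourConnected_iff] at hS
  have hsub : ∀ {W : Subgroup G}, K4 W → W ≤ S → K4 (W.subgroupOf S) := by
    intro W hW hWS
    refine ⟨by rw [Nat.card_congr (subgroupOfEquivOfLe hWS).toEquiv]; exact hW.1, ?_⟩
    intro x hx
    exact Subtype.ext (hW.2 x hx)
  have h1 := hS _ _ (hsub hU hUS) (hsub hV hVS)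
  have h2 : C ((U.subgroupOf S).map S.subtype) ((V.subgroupOf S).map S.subtype) := by
    have hmap : ∀ {W : Subgroup S}, K4 W → K4 (W.map S.subtype) := by
      intro W hW
      refine ⟨by rw [Nat.card_congr (W.equivMapOfInjective _ S.subtype_injective).symm.toEquiv]; exact hW.1, ?_⟩
      rintro _ ⟨a, ha, rfl⟩
      exact congrArg Subtype.val (hW.2 a ha)
    refine Relation.ReflTransGen.lift (fun A : Subgroup S => A.map S.subtype) ?_ _ _ h1
    rintro A B ⟨hA, hB, hAB⟩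
    refine ⟨hmap hA, hmap hB, ?_⟩
    rintro _ ⟨a, ha, rfl⟩ _ ⟨b, hb, rfl⟩
    exact congrArg Subtype.val (hAB a ha b hb)
  rwa [subgroupOf_map_subtype, subgroupOf_map_subtype, inf_of_le_left hUS, inf_of_le_left hVS] at h2

theorem exists_conj_le_sylow (S : Sylow 2 G) {Γ W : Subgroup G} (hSΓ : S.toSubgroup ≤ Γ) (hWΓ : W ≤ Γ)
    (hW : IsPGroup 2 W) : ∃ d ∈ Γ, cj d W ≤ S.toSubgroup := by
  haveI : Fact (Nat.Prime 2) := ⟨Nat.prime_two⟩
  let S' : Sylow 2 Γ := S.subtype hSΓ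
  have hW' : IsPGroup 2 (W.subgroupOf Γ) := hW.comap_subtype
  obtain ⟨Q, hQ⟩ := hW'.exists_le_sylow
  obtain ⟨d, hd⟩ := MulAction.exists_smul_eq Γ Q S'
  refine ⟨d, d.2, ?_⟩
  intro x hx
  rw [mem_cj] at hx
  have h1 : (⟨(d : G)⁻¹ * x * d, hWΓ hx⟩ : Γ) ∈ Q.toSubgroup := hQ hx
  have h2 : d * ⟨(d : G)⁻¹ * x * d, hWΓ hx⟩ * d⁻¹ ∈ (d • Q : Sylow 2 Γ).toSubgroup := by
    rw [Sylow.coe_subgroup_smul, ← MulAut.conj_apply]
    exact smul_mem_pointwise_smul _ (MulAut.conj d) _ h1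
  rw [hd] at h2
  have h3 : ((d * ⟨(d : G)⁻¹ * x * d, hWΓ hx⟩ * d⁻¹ : Γ) : G) ∈ S.toSubgroup := h2
  have h4 : ((d * ⟨(d : G)⁻¹ * x * d, hWΓ hx⟩ * d⁻¹ : Γ) : G) = x := by
    show (d : G) * ((d : G)⁻¹ * x * d) * (d : G)⁻¹ = x
    group
  rwa [h4] at h3

/-- the `2`-generated core -/
theorem main (h2 : ¬ Cfsg.PRankLE 2 1 G) (S : Sylow 2 G) (hS : Cfsg.IsFourConnected S.toSubgroup)
    (Γ : Subgroup G) (hΓ : ∀ Q : Subgroup G, Q ≤ S.toSubgroup → ¬ Cfsg.PRankLE 2 1 Q →
      normalizer (Q : Set G) ≤ Γ)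
    (hΓ' : ∀ D : Subgroup G, (∀ Q : Subgroup G, Q ≤ S.toSubgroup → ¬ Cfsg.PRankLE 2 1 Q →
      normalizer (Q : Set G) ≤ D) → Γ ≤ D) :
    Cfsg.IsFourConnected G ↔ Γ = ⊤ := by
  classical
  haveI : Fact (Nat.Prime 2) := ⟨Nat.prime_two⟩
  -- a four-subgroup of `S`
  have hK4p : ∀ V : Subgroup G, K4 V → IsPGroup 2 V := fun V hV =>
    IsPGroup.of_card (n := 2) (by rw [hV.1]; norm_num)
  have hconjS : ∀ V : Subgroup G, K4 V → ∃ g : G, cj g V ≤ S.toSubgroup := by
    intro V hV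
    obtain ⟨d, -, hd⟩ := exists_conj_le_sylow S (Γ := ⊤) le_top le_top (hK4p V hV)
    exact ⟨d, hd⟩
  obtain ⟨V, hV⟩ := exists_K4 h2
  obtain ⟨g0, hg0⟩ := hconjS V hV
  obtain ⟨V0, hV0⟩ : ∃ V0, V0 = cj g0 V := ⟨_, rfl⟩
  rw [← hV0] at hg0
  have hV0K : K4 V0 := hV0 ▸ cj_K4 g0 hV
  rw [isFourConnected_iff]
  constructor
  · intro hcon
    have hSΓ : S.toSubgroup ≤ Γ := le_normalizer.trans (hΓ _ le_rfl (not_rank_of_K4 hg0 hV0K))
    -- every four-subgroup is `Γ`-conjugate into `S`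
    have hA : ∀ U : Subgroup G, C V0 U → ∃ d ∈ Γ, cj d U ≤ S.toSubgroup := by
      intro U hU
      induction hU with
      | refl => exact ⟨1, one_mem _, by rw [cj_one]; exact hg0⟩
      | tail _ hBD ih =>
        rename_i B D _
        obtain ⟨d, hd, hdB⟩ := ih
        have h1 := R_cj d hBD
        have h3 : cj d D ≤ Γ := by
          refine le_trans ?_ (hΓ (cj d B) hdB (not_rank_of_K4 le_rfl h1.1))
          refine le_trans ?_ (centralizer_le_normalizer _)
          intro x hx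
          rw [mem_centralizer_iff]
          intro b hb
          exact h1.2.2 b hb x hx
        obtain ⟨e, he, heD⟩ := exists_conj_le_sylow S hSΓ h3 (hK4p _ h1.2.1)
        exact ⟨e * d, mul_mem he hd, by rw [cj_mul]; exact heD⟩
    rw [eq_top_iff]
    intro g _
    -- choose `γ ∈ Γ` with `S ∩ S^{γ g}` of maximal order
    obtain ⟨d0, hd0, hd0'⟩ := hA (cj g V0) (hcon _ _ hV0K (cj_K4 g hV0K))
    obtain ⟨γ, ⟨hγ, hγK⟩, hγmax⟩ := Set.Finite.exists_maximalFor
      (fun γ : G => Nat.card (S.toSubgroup ⊓ cj (γ * g) S.toSubgroup : Subgroup G))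
      {γ : G | γ ∈ Γ ∧ ∃ U : Subgroup G, K4 U ∧ U ≤ S.toSubgroup ⊓ cj (γ * g) S.toSubgroup} (Set.toFinite _)
      ⟨d0, hd0, cj (d0 * g) V0, cj_K4 _ hV0K, le_inf (by rw [cj_mul]; exact hd0') (cj_mono _ hg0)⟩
    obtain ⟨U, hUK, hUR⟩ := hγK
    obtain ⟨x, hx⟩ : ∃ x, x = γ * g := ⟨_, rfl⟩
    obtain ⟨A, hAdef⟩ : ∃ A : Subgroup G, A = S.toSubgroup ⊓ cj x S.toSubgroup := ⟨_, rfl⟩
    rw [← hx, ← hAdef] at hUR
    have hAS : A ≤ S.toSubgroup := hAdef ▸ inf_le_left
    have hAx : A ≤ cj x S.toSubgroup := hAdef ▸ inf_le_right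
    have hNA : normalizer (A : Set G) ≤ Γ := hΓ A hAS (not_rank_of_K4 hUR hUK)
    have hxp : IsPGroup 2 (cj x S.toSubgroup) := S.2.map _
    have hxΓ : x ∈ Γ := by
      by_cases hAe : A = cj x S.toSubgroup
      · have h1 : cj x S.toSubgroup = S.toSubgroup := by
          apply Subgroup.eq_of_le_of_card_ge
          · rw [← hAe]; exact hAS
          · rw [card_cj]
        exact hΓ _ le_rfl (not_rank_of_K4 hg0 hV0K) (mem_normalizer_iff_map_conj_eq.2 h1)
      · exfalso
        have hlt : A < cj x S.toSubgroup := lt_of_le_of_ne hAx hAe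
        obtain ⟨y, hyx, hyN, hyA⟩ := exists_mem_normalizer_not_mem hxp hlt
        obtain ⟨T, hT⟩ : ∃ T : Subgroup G, T = cj x S.toSubgroup ⊓ normalizer (A : Set G) := ⟨_, rfl⟩
        have hAT : A < T := by
          refine lt_of_le_of_ne (hT ▸ le_inf hAx le_normalizer) ?_
          intro h
          apply hyA
          rw [h, hT]; exact Subgroup.mem_inf.2 ⟨hyx, hyN⟩
        have hTp : IsPGroup 2 T := hxp.to_le (hT ▸ inf_le_left)
        obtain ⟨e, he, heT⟩ := exists_conj_le_sylow S hSΓ ((hT ▸ inf_le_right : T ≤ normalizer (A : Set G)).trans hNA) hTp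
        have h1 : cj e T ≤ S.toSubgroup ⊓ cj ((e * γ) * g) S.toSubgroup := by
          refine le_inf heT ?_
          rw [mul_assoc, ← hx, cj_mul]
          exact cj_mono e (hT ▸ inf_le_left)
        have h2 := hγmax (j := e * γ) ⟨mul_mem he hγ, cj e U, cj_K4 e hUK,
          (cj_mono e (hUR.trans hAT.le)).trans h1⟩
        have h3 : Nat.card T ≤ Nat.card (S.toSubgroup ⊓ cj ((e * γ) * g) S.toSubgroup : Subgroup G) := by
          rw [← card_cj e T]
          exact Nat.le_of_dvd Nat.card_pos (card_dvd_of_le h1)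
        have h4 : Nat.card A < Nat.card T := by
          by_contra hcon'
          exact hAT.ne (Subgroup.eq_of_le_of_card_ge hAT.le (not_lt.1 hcon'))
        rw [hAdef, hx] at h4
        exact absurd (h2 (h4.le.trans h3)) (not_le_of_gt (lt_of_lt_of_le h4 h3))
    have h5 : g = γ⁻¹ * x := by rw [hx]; group
    rw [h5]; exact mul_mem (inv_mem hγ) hxΓ
  · intro htop
    let St : Subgroup G :=
      { carrier := {g | C V0 (cj g V0)}
        one_mem' := by show C V0 (cj 1 V0); rw [cj_one]; exact Relation.ReflTransGen.refl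
        mul_mem' := by
          intro a b ha hb
          show C V0 (cj (a * b) V0)
          rw [cj_mul]
          exact C_trans ha (C_cj a hb)
        inv_mem' := by
          intro a ha
          show C V0 (cj a⁻¹ V0)
          have h1 := C_cj a⁻¹ ha
          rw [← cj_mul, inv_mul_cancel, cj_one] at h1
          exact C_symm h1 }
    have hSt : Γ ≤ St := by
      apply hΓ'
      intro Q hQS hQ g hg
      obtain ⟨W, hWQ, hW⟩ := exists_K4_le hQ
      have h1 : cj g W ≤ S.toSubgroup := by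
        refine le_trans (cj_mono g hWQ) ?_
        rw [cj_eq_of_mem hg]; exact hQS
      have h2 : C V0 (cj g W) := C_of_le hS hV0K (cj_K4 g hW) hg0 h1
      have h3 : C V0 W := C_of_le hS hV0K hW hg0 (hWQ.trans hQS)
      exact C_trans h2 (C_symm (C_cj g h3))
    have hall : ∀ U : Subgroup G, K4 U → C V0 U := by
      intro U hU
      obtain ⟨g, hg⟩ := hconjS U hU
      have h1 : C V0 (cj g U) := C_of_le hS hV0K (cj_K4 g hU) hg0 hg
      have h2 := C_cj g⁻¹ h1
      rw [← cj_mul, inv_mul_cancel, cj_one] at h2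
      have h3 : g⁻¹ ∈ St := hSt (by rw [htop]; exact mem_top _)
      exact C_trans h3 h2
    intro U W hU hW
    exact C_trans (C_symm (hall U hU)) (hall W hW)

end

end Cfsg.Agent.H2.FourCon
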