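import Mathlib
import Cfsg.Prelude.Def_MonsterType
import Cfsg.Agent.H29.XS4
import Cfsg.Agent.H10.Comp
import Cfsg.Agent.H2.Basic

set_option autoImplicit false
set_option linter.all false

/-! Groups with a self-centralizing extraspecial normal subgroup of an involution centralizer. -/

namespace Cfsg.Agent.H2.LX
open Subgroup Cfsg Cfsg.Agent.H29
open scoped Pointwise

variable {G : Type*} [Group G]

theorem xs_map {C : Subgroup G} {Q : Subgroup C} {z : C} (h : XS Q z) :
    XS (Q.map C.subtype) (z : G) := by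
  have hm : ∀ x ∈ Q.map C.subtype, ∃ u ∈ Q, x = (u : G) := by
    rintro _ ⟨u, hu, rfl⟩
    exact ⟨u, hu, rfl⟩
  have hmem : ∀ u ∈ Q, (u : G) ∈ Q.map C.subtype := fun u hu => ⟨u, hu, rfl⟩
  have hinj : ∀ u v : C, (u : G) = v → u = v := fun u v h => Subtype.ext h
  apply XS.mk'
  · exact h.hp.map _
  · intro h1
    exact h.z_ne (hinj _ _ h1)
  · have := congrArg (fun x : C => (x : G)) h.z_sq
    simpa using this
  · exact hmem _ h.z_mem
  · intro x hx
    obtain ⟨u, hu, rfl⟩ := hm x hx
    have := congrArg (fun x : C => (x : G)) (h.z_comm u hu)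
    simpa using this
  · intro x hx h1
    obtain ⟨u, hu, rfl⟩ := hm x hx
    rcases h.cent u hu (fun y hy => hinj _ _ (by simpa using h1 (y : G) (hmem y hy))) with h2 | h2
    · left; rw [h2]; rfl
    · right; rw [h2]
  · intro x hx y hy
    obtain ⟨u, hu, rfl⟩ := hm x hx
    obtain ⟨v, hv, rfl⟩ := hm y hy
    rcases h.comm u hu v hv with h2 | h2
    · left
      have := congrArg (fun x : C => (x : G)) h2
      simpa using this
    · right
      have := congrArg (fun x : C => (x : G)) h2
      simpa using this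
  · intro x hx
    obtain ⟨u, hu, rfl⟩ := hm x hx
    rcases h.sq u hu with h2 | h2
    · left
      have := congrArg (fun x : C => (x : G)) h2
      simpa using this
    · right
      have := congrArg (fun x : C => (x : G)) h2
      simpa using this
  · obtain ⟨x, hx, y, hy, hxy⟩ := h.nonab
    refine ⟨x, hmem x hx, y, hmem y hy, fun h1 => hxy (hinj _ _ (by simpa using h1))⟩

theorem nxs_of_fstar [Finite G] {z : G} (hz : orderOf z = 2) {Q : Subgroup G}
    (hF : (Cfsg.generalizedFittingSubgroup ↥(centralizer ({z} : Set G))).map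
      (centralizer ({z} : Set G)).subtype = Q) {z' : G} (h : XS Q z') : NXS Q z := by
  set C := centralizer ({z} : Set G) with hC
  have hQC : Q ≤ C := by rw [← hF]; exact map_subtype_le _
  have hzC : z ∈ C := by rw [hC, mem_centralizer_singleton_iff]
  have hcomm : ∀ x ∈ C, x * z = z * x := fun x hx => by
    rw [hC, mem_centralizer_singleton_iff] at hx; exact hx
  have hcen : ∀ x ∈ C, (∀ y ∈ Q, x * y = y * x) → x ∈ Q := by
    intro x hx h1
    have h2 : (⟨x, hx⟩ : C) ∈ centralizer (Cfsg.generalizedFittingSubgroup ↥C : Set C) := by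
      rw [mem_centralizer_iff]
      intro y hy
      have h3 : (y : G) ∈ Q := by rw [← hF]; exact ⟨y, hy, rfl⟩
      exact Subtype.ext (h1 _ h3).symm
    have h3 := H10.centralizer_genFitting_le h2
    rw [← hF]
    exact ⟨_, h3, rfl⟩
  have hzQ : z ∈ Q := hcen z hzC (fun y hy => (hcomm y (hQC hy)).symm)
  have hzz : z = z' := by
    rcases h.cent z hzQ (fun y hy => (hcomm y (hQC hy)).symm) with h1 | h1
    · rw [h1, orderOf_one] at hz; omega
    · exact h1
  subst hzz
  refine ⟨h, ?_, ?_⟩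
  · intro x hx
    have hxC : x ∈ C := by
      rw [hC, mem_centralizer_singleton_iff]; exact hx z hzQ
    exact h.cent x (hcen x hxC hx) hx
  · intro x
    constructor
    · exact h.norm_comm
    · intro hx
      have hxC : x ∈ C := by
        rw [hC, mem_centralizer_singleton_iff]; exact hx
      haveI : (Cfsg.generalizedFittingSubgroup ↥C).Normal := H10.genFitting_normal _
      rw [mem_normalizer_iff]
      have key : ∀ w ∈ C, ∀ y ∈ Q, w * y * w⁻¹ ∈ Q := by
        intro w hw y hy
        rw [← hF] at hy ⊢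
        obtain ⟨u, hu, rfl⟩ := hy
        exact ⟨⟨w, hw⟩ * u * ⟨w, hw⟩⁻¹, Subgroup.Normal.conj_mem inferInstance u hu _, rfl⟩
      intro y
      refine ⟨key x hxC y, fun h1 => ?_⟩
      have := key x⁻¹ (C.inv_mem hxC) _ h1
      have h6 : x⁻¹ * (x * y * x⁻¹) * x⁻¹⁻¹ = y := by group
      rwa [h6] at this

theorem simple_of_gen [Finite G] {Q : Subgroup G} {z : G} (h : NXS Q z)
    (hodd : ∀ K : Subgroup G, Odd (Nat.card K) → Q ≤ normalizer (K : Set G) → K = ⊥)
    (hgen : ∀ N : Subgroup G, N.Normal → z ∈ N → centralizer ({z} : Set G) ≤ N) :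
    IsSimpleGroup G := by
  haveI : Fact (Nat.Prime 2) := ⟨Nat.prime_two⟩
  haveI : Nontrivial G := ⟨⟨z, 1, h.z_ne⟩⟩
  refine ⟨fun N hN => ?_⟩
  by_cases hb : N = ⊥
  · exact Or.inl hb
  right
  obtain ⟨T, hQT⟩ := h.hp.exists_le_sylow
  have hcT : ∀ x : G, (∀ y ∈ (T : Subgroup G), x * y = y * x) → x = 1 ∨ x = z := fun x hx =>
    h.cent_G x fun y hy => hx y (hQT hy)
  have heven : 2 ∣ Nat.card N := by
    by_contra hno
    apply hb
    apply hodd N
    · rwa [← Nat.not_even_iff_odd, even_iff_two_dvd]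
    · rw [normalizer_eq_top]; exact le_top
  obtain ⟨y, hy⟩ := exists_prime_orderOf_dvd_card' (G := N) 2 heven
  have hyo : orderOf (y : G) = 2 := by rw [Subgroup.orderOf_coe]; exact hy
  have hyp : IsPGroup 2 (zpowers (y : G)) := IsPGroup.of_card (n := 1) (by rw [Nat.card_zpowers, hyo, pow_one])
  obtain ⟨S, hS⟩ := hyp.exists_le_sylow
  obtain ⟨g, hg⟩ := MulAction.exists_smul_eq G S T
  have hgT : g * (y : G) * g⁻¹ ∈ (T : Subgroup G) := by
    rw [← hg]
    show g * (y : G) * g⁻¹ ∈ MulAut.conj g • (S : Subgroup G)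
    rw [Subgroup.mem_pointwise_smul_iff_inv_smul_mem]
    have h1 : (MulAut.conj g)⁻¹ • (g * (y : G) * g⁻¹) = y := by
      rw [← map_inv]
      show g⁻¹ * (g * (y : G) * g⁻¹) * g⁻¹⁻¹ = y
      group
    rw [h1]
    exact hS (mem_zpowers _)
  have hNT : ((N.subgroupOf (T : Subgroup G))) ≠ ⊥ := by
    intro h1
    rw [subgroupOf_eq_bot, disjoint_iff] at h1
    have h2 : g * (y : G) * g⁻¹ ∈ N ⊓ (T : Subgroup G) := ⟨hN.conj_mem _ y.2 g, hgT⟩
    rw [h1, mem_bot] at h2
    have h3 : (y : G) = 1 := by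
      calc (y : G) = g⁻¹ * (g * y * g⁻¹) * g := by group
        _ = 1 := by rw [h2]; group
    rw [h3, orderOf_one] at hyo
    omega
  have hmeet := H2.inf_center_ne_bot_of_normal (p := 2) T.2 (N.subgroupOf (T : Subgroup G)) hNT
  obtain ⟨⟨t, ht⟩, ht0⟩ := Subgroup.ne_bot_iff_exists_ne_one.1 hmeet
  have ht1 : t ≠ 1 := fun h => ht0 (Subtype.ext h)
  have htz : (t : G) = z := by
    rcases hcT (t : G) (fun y hy => by
      have := mem_center_iff.1 (mem_inf.1 ht).2 ⟨y, hy⟩
      exact (congrArg Subtype.val this).symm) with h1 | h1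
    · exact absurd (Subtype.ext h1) ht1
    · exact h1
  have hzN : z ∈ N := by
    rw [← htz]
    exact mem_subgroupOf.1 (mem_inf.1 ht).1
  have hCN := hgen N hN hzN
  have hzT : ∀ y ∈ (T : Subgroup G), z * y = y * z := by
    intro y hy
    have := mem_center_iff.1 (mem_inf.1 ht).2 ⟨y, hy⟩
    have h2 := congrArg Subtype.val this
    rw [← htz]
    exact h2.symm
  have hTN : (T : Subgroup G) ≤ N := by
    intro x hx
    apply hCN
    rw [mem_centralizer_singleton_iff]
    exact (hzT x hx).symm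
  have hfr := Sylow.normalizer_sup_eq_top' T hTN
  rw [eq_top_iff, ← hfr]
  refine sup_le ?_ le_rfl
  intro n hn
  apply hCN
  rw [mem_centralizer_singleton_iff]
  have h1 : n * z * n⁻¹ = 1 ∨ n * z * n⁻¹ = z := by
    apply hcT
    intro y hy
    have h2 : n⁻¹ * y * n ∈ (T : Subgroup G) := by
      have := (mem_normalizer_iff.1 (inv_mem hn) y).1 hy
      simpa using this
    have h3 := hzT _ h2
    calc n * z * n⁻¹ * y = n * (z * (n⁻¹ * y * n)) * n⁻¹ := by group
      _ = n * ((n⁻¹ * y * n) * z) * n⁻¹ := by rw [h3]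
      _ = y * (n * z * n⁻¹) := by group
  rcases h1 with h1 | h1
  · exfalso
    apply h.z_ne
    calc z = n⁻¹ * (n * z * n⁻¹) * n := by group
      _ = 1 := by rw [h1]; group
  · calc n * z = (n * z * n⁻¹) * n := by group
      _ = z * n := by rw [h1]

end Cfsg.Agent.H2.LX
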