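import Mathlib
import Cfsg.Agent.H2.LX
import Cfsg.Agent.S5422
import Cfsg.Agent.H4.QZ

set_option autoImplicit false
set_option linter.all false

/-! Two large extraspecial subgroups in a four-group situation. -/

namespace Cfsg.Agent.H2.LX
open Subgroup Cfsg Cfsg.Agent.H29 Cfsg.Agent.H14

variable {G : Type*} [Group G]

structure Sit (A B : Subgroup G) (z v : G) : Prop where
  hA : NXS A z
  hB : NXS B v
  vA : v ∈ A
  zB : z ∈ B
  ne : v ≠ z
  cj : ∀ g, g * z * g⁻¹ = v → cj g A = B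

def RR (A B : Subgroup G) (z v : G) : Subgroup G :=
  (B ⊓ centralizer ({z} : Set G)) ⊔ (A ⊓ centralizer ({v} : Set G))

namespace Sit

variable {A B : Subgroup G} {z v : G}

theorem symm (h : Sit A B z v) : Sit B A v z where
  hA := h.hB
  hB := h.hA
  vA := h.zB
  zB := h.vA
  ne := h.ne.symm
  cj := by
    intro g hg
    have h1 : g⁻¹ * z * g⁻¹⁻¹ = v := by rw [← hg]; group
    have := h.cj _ h1
    rw [← this, cj_cj_inv]

theorem rr_symm : RR A B z v = RR B A v z := by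
  unfold RR; rw [sup_comm]

theorem zv (h : Sit A B z v) : v * z = z * v := h.hA.z_comm v h.vA

theorem vv (h : Sit A B z v) : v * v = 1 := h.hB.z_sq
theorem zz (h : Sit A B z v) : z * z = 1 := h.hA.z_sq

theorem exists_q (h : Sit A B z v) : ∃ q ∈ A, q * v ≠ v * q := by
  by_contra hne
  push Not at hne
  rcases h.hA.cent v h.vA (fun y hy => (hne y hy).symm) with h1 | h1
  · exact h.hB.z_ne h1
  · exact h.ne h1

theorem conj_v (h : Sit A B z v) {q : G} (hq : q ∈ A) : q * v * q⁻¹ = v ∨ q * v * q⁻¹ = z * v := by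
  rcases h.hA.comm q hq v h.vA with h1 | h1
  · left; rw [h1]; group
  · right; rw [h1]; group

theorem conj_z (h : Sit A B z v) {q : G} (hq : q ∈ A) : q * z * q⁻¹ = z := by
  rw [h.hA.z_comm q hq]; group

theorem mem_cent {z x : G} : x ∈ centralizer ({z} : Set G) ↔ x * z = z * x := mem_centralizer_singleton_iff

theorem conj_of_comm {c y : G} (h : c * y = y * c) : c * y * c⁻¹ = y := by rw [h]; group

theorem comm_of_conj {c y : G} (h : c * y * c⁻¹ = y) : c * y = y * c := by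
  calc c * y = (c * y * c⁻¹) * c := by group
    _ = _ := by rw [h]

/-- elements centralizing `z` and `v` normalize `A ⊓ C(v)` -/
theorem norm_D (h : Sit A B z v) {c : G} (hcz : c * z = z * c) (hcv : c * v = v * c) {d : G}
    (hd : d ∈ A ⊓ centralizer ({v} : Set G)) : c * d * c⁻¹ ∈ A ⊓ centralizer ({v} : Set G) := by
  refine ⟨(mem_normalizer_iff.1 ((h.hA.norm c).2 hcz) d).1 hd.1, ?_⟩
  have h1 := mem_cent.1 hd.2
  refine mem_cent.2 ?_
  have h2 : c⁻¹ * v = v * c⁻¹ := by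
    have := conj_of_comm hcv
    calc c⁻¹ * v = c⁻¹ * (c * v * c⁻¹) := by rw [this]
      _ = v * c⁻¹ := by group
  calc c * d * c⁻¹ * v = c * d * (c⁻¹ * v) := by group
    _ = c * (d * v) * c⁻¹ := by rw [h2]; group
    _ = c * (v * d) * c⁻¹ := by rw [h1]
    _ = (c * v) * d * c⁻¹ := by group
    _ = v * (c * d * c⁻¹) := by rw [hcv]; group

theorem le_zv (h : Sit A B z v) : RR A B z v ≤ centralizer ({z} : Set G) ⊓ centralizer ({v} : Set G) := by
  apply sup_le
  · intro x hx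
    refine ⟨hx.2, mem_cent.2 ?_⟩
    exact h.hB.z_comm x hx.1
  · intro x hx
    refine ⟨mem_cent.2 ?_, hx.2⟩
    exact h.hA.z_comm x hx.1

/-- conjugating by an element of `A` sends `C(z) ⊓ C(v)` into itself -/
theorem conj_cent (h : Sit A B z v) {q : G} (hq : q ∈ A) {x : G} (hxz : x * z = z * x) (hxv : x * v = v * x) :
    (q * x * q⁻¹) * z = z * (q * x * q⁻¹) ∧ (q * x * q⁻¹) * v = v * (q * x * q⁻¹) := by
  have hqi := A.inv_mem hq
  have h1 : q⁻¹ * z * q = z := by
    have := h.conj_z hqi; simpa using this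
  have e : ∀ y : G, (q * x * q⁻¹) * y = q * (x * (q⁻¹ * y * q)) * q⁻¹ := by intro y; group
  have e' : ∀ y : G, y * (q * x * q⁻¹) = q * ((q⁻¹ * y * q) * x) * q⁻¹ := by intro y; group
  constructor
  · rw [e, e', h1, hxz]
  · rw [e, e']
    have h2 : q⁻¹ * v * q = v ∨ q⁻¹ * v * q = z * v := by
      have := h.conj_v hqi; simpa using this
    rcases h2 with h2 | h2
    · rw [h2, hxv]
    · rw [h2]
      congr 2
      calc x * (z * v) = (x * z) * v := by group
        _ = z * (x * v) := by rw [hxz]; group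
        _ = z * v * x := by rw [hxv]; group

theorem A_norm (h : Sit A B z v) {q : G} (hq : q ∈ A) : ∀ x ∈ RR A B z v, q * x * q⁻¹ ∈ RR A B z v := by
  have hD : ∀ d ∈ A ⊓ centralizer ({v} : Set G), q * d * q⁻¹ ∈ RR A B z v := by
    intro d hd
    apply mem_sup_right
    refine ⟨A.mul_mem (A.mul_mem hq hd.1) (A.inv_mem hq), ?_⟩
    exact mem_cent.2 (h.conj_cent hq (h.hA.z_comm d hd.1) (mem_cent.1 hd.2)).2
  have hD2 : ∀ d ∈ B ⊓ centralizer ({z} : Set G), q * d * q⁻¹ ∈ RR A B z v := by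
    intro d hd
    have hdz := mem_cent.1 hd.2
    have hdv := h.hB.z_comm d hd.1
    have h1 : q * d * q⁻¹ * d⁻¹ ∈ A ⊓ centralizer ({v} : Set G) := by
      constructor
      · have e : q * d * q⁻¹ * d⁻¹ = q * (d * q⁻¹ * d⁻¹) := by group
        rw [e]
        exact A.mul_mem hq ((mem_normalizer_iff.1 ((h.hA.norm d).2 hdz) q⁻¹).1 (A.inv_mem hq))
      · apply (centralizer ({v} : Set G)).mul_mem
        · exact mem_cent.2 (h.conj_cent hq hdz hdv).2
        · exact (centralizer ({v} : Set G)).inv_mem (mem_cent.2 hdv)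
    have e : q * d * q⁻¹ = (q * d * q⁻¹ * d⁻¹) * d := by group
    rw [e]
    exact mul_mem (mem_sup_right h1) (mem_sup_left hd)
  intro x hx
  have hle : RR A B z v ≤ (RR A B z v).comap (MulAut.conj q).toMonoidHom := by
    apply sup_le
    · exact hD2
    · exact hD
  exact hle hx

theorem A_le_normalizer (h : Sit A B z v) : A ≤ normalizer (RR A B z v : Set G) := by
  intro q hq
  rw [mem_normalizer_iff]
  intro x
  refine ⟨h.A_norm hq x, fun h1 => ?_⟩
  have := h.A_norm (A.inv_mem hq) _ h1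
  have e : q⁻¹ * (q * x * q⁻¹) * q⁻¹⁻¹ = x := by group
  rwa [e] at this

theorem X_le_normalizer (h : Sit A B z v) : A ⊔ B ≤ normalizer (RR A B z v : Set G) := by
  apply sup_le h.A_le_normalizer
  rw [rr_symm]
  exact h.symm.A_le_normalizer

theorem RR_le_X : RR A B z v ≤ A ⊔ B :=
  sup_le (inf_le_left.trans le_sup_right) (inf_le_left.trans le_sup_left)

theorem RR_pgroup (h : Sit A B z v) : IsPGroup 2 (RR A B z v) := by
  have h1 : B ⊓ centralizer ({z} : Set G) ≤ normalizer ((A ⊓ centralizer ({v} : Set G) : Subgroup G) : Set G) := by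
    intro c hc
    have hcz := mem_cent.1 hc.2
    have hcv := h.hB.z_comm c hc.1
    have hcz' : c⁻¹ * z = z * c⁻¹ := by
      have := conj_of_comm hcz
      calc c⁻¹ * z = c⁻¹ * (c * z * c⁻¹) := by rw [this]
        _ = z * c⁻¹ := by group
    have hcv' : c⁻¹ * v = v * c⁻¹ := h.hB.z_comm _ (B.inv_mem hc.1)
    rw [mem_normalizer_iff]
    intro x
    refine ⟨fun hx => h.norm_D hcz hcv hx, fun h2 => ?_⟩
    have := h.norm_D hcz' hcv' h2
    have e : c⁻¹ * (c * x * c⁻¹) * c⁻¹⁻¹ = x := by group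
    rwa [e] at this
  exact (h.hB.hp.to_le inf_le_left).to_sup_of_normal_right' (h.hA.hp.to_le inf_le_left) h1

theorem closure_V (h : Sit A B z v) {x : G} (hx : x ∈ closure ({z, v} : Set G)) :
    x = 1 ∨ x = z ∨ x = v ∨ x = z * v := by
  have hzv := h.zv
  have hzz := h.zz
  have hvv := h.vv
  induction hx using closure_induction_right with
  | one => left; rfl
  | mul_right x hx y hy ih =>
    have hy' : y = z ∨ y = v := hy
    rcases hy' with rfl | rfl
    · rcases ih with rfl | rfl | rfl | rfl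
      · right; left; rw [one_mul]
      · left; exact hzz
      · right; right; right; exact hzv
      · right; right; left
        rw [mul_assoc, hzv, ← mul_assoc, hzz, one_mul]
    · rcases ih with rfl | rfl | rfl | rfl
      · right; right; left; rw [one_mul]
      · right; right; right; rfl
      · left; exact hvv
      · right; left
        rw [mul_assoc, hvv, mul_one]
  | mul_inv_cancel x hx y hy ih =>
    have hy' : y = z ∨ y = v := hy
    have hzi : z⁻¹ = z := inv_eq_of_mul_eq_one_left hzz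
    have hvi : v⁻¹ = v := inv_eq_of_mul_eq_one_left hvv
    rcases hy' with rfl | rfl
    · rw [hzi]
      rcases ih with rfl | rfl | rfl | rfl
      · right; left; rw [one_mul]
      · left; exact hzz
      · right; right; right; exact hzv
      · right; right; left
        rw [mul_assoc, hzv, ← mul_assoc, hzz, one_mul]
    · rw [hvi]
      rcases ih with rfl | rfl | rfl | rfl
      · right; right; left; rw [one_mul]
      · right; right; right; rfl
      · left; exact hvv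
      · right; left
        rw [mul_assoc, hvv, mul_one]

theorem mem_cent_V {x : G} : x ∈ centralizer (closure ({z, v} : Set G) : Set G) ↔
    x * z = z * x ∧ x * v = v * x := by
  rw [centralizer_closure, mem_centralizer_iff]
  constructor
  · intro h1
    exact ⟨(h1 z (by simp)).symm, (h1 v (by simp)).symm⟩
  · rintro ⟨h1, h2⟩ y hy
    have hy' : y = z ∨ y = v := hy
    rcases hy' with rfl | rfl
    · exact h1.symm
    · exact h2.symm

end Sit

/-- words in two generators with the braid relation -/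
theorem six {Y : Type*} [Group Y] {a b : Y} (ha : a * a = 1) (hb : b * b = 1)
    (hab : a * b * a = b * a * b) {x : Y} (hx : x ∈ closure ({a, b} : Set Y)) :
    x = 1 ∨ x = a ∨ x = b ∨ x = a * b ∨ x = b * a ∨ x = a * b * a := by
  have hai : a⁻¹ = a := inv_eq_of_mul_eq_one_left ha
  have hbi : b⁻¹ = b := inv_eq_of_mul_eq_one_left hb
  have key : ∀ x y : Y, (y = a ∨ y = b) →
      (x = 1 ∨ x = a ∨ x = b ∨ x = a * b ∨ x = b * a ∨ x = a * b * a) →
      (x * y = 1 ∨ x * y = a ∨ x * y = b ∨ x * y = a * b ∨ x * y = b * a ∨ x * y = a * b * a) := by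
    rintro x y (rfl | rfl) (rfl | rfl | rfl | rfl | rfl | rfl)
    · right; left; rw [one_mul]
    · left; exact ha
    · right; right; right; right; left; rfl
    · right; right; right; right; right; rfl
    · right; right; left; rw [mul_assoc, ha, mul_one]
    · right; right; right; left; rw [mul_assoc, ha, mul_one]
    · right; right; left; rw [one_mul]
    · right; right; right; left; rfl
    · left; exact hb
    · right; left; rw [mul_assoc, hb, mul_one]
    · right; right; right; right; right; rw [hab]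
    · right; right; right; right; left; rw [hab, mul_assoc, hb, mul_one]
  induction hx using closure_induction_right with
  | one => left; rfl
  | mul_right x hx y hy ih => exact key x y hy ih
  | mul_inv_cancel x hx y hy ih =>
    have hy' : y = a ∨ y = b := hy
    have hyi : y⁻¹ = y := by rcases hy' with rfl | rfl <;> assumption
    rw [hyi]
    exact key x y hy' ih


namespace Sit
variable {A B : Subgroup G} {z v : G}

theorem braid (h : Sit A B z v) {q1 q2 : G} (hq1 : q1 ∈ A) (hq2 : q2 ∈ B) (h1 : q1 * v ≠ v * q1)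
    (h2 : q2 * z ≠ z * q2) : (q1 * q2 * q1⁻¹)⁻¹ * (q2⁻¹ * q1 * q2) ∈ RR A B z v := by
  have hzv := h.zv
  have e1 : q1 * v * q1⁻¹ = z * v := by
    rcases h.conj_v hq1 with h3 | h3
    · exact absurd (comm_of_conj h3) h1
    · exact h3
  have e2 : q2 * z * q2⁻¹ = v * z := by
    rcases h.symm.conj_v hq2 with h3 | h3
    · exact absurd (comm_of_conj h3) h2
    · exact h3
  have e3 : q2⁻¹ * z * q2 = v * z := by
    have h4 := h.symm.conj_v (B.inv_mem hq2)
    rw [inv_inv] at h4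
    rcases h4 with h3 | h3
    · exfalso
      apply h2
      calc q2 * z = q2 * (q2⁻¹ * z * q2) := by rw [h3]
        _ = z * q2 := by group
    · exact h3
  have e4 : q1⁻¹ * v * q1 = z * v := by
    have h4 := h.conj_v (A.inv_mem hq1)
    rw [inv_inv] at h4
    rcases h4 with h3 | h3
    · exfalso
      apply h1
      calc q1 * v = q1 * (q1⁻¹ * v * q1) := by rw [h3]
        _ = v * q1 := by group
    · exact h3
  have e5 : q1⁻¹ * z * q1 = z := by
    have := h.conj_z (A.inv_mem hq1); rwa [inv_inv] at this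
  have hQ3 : H14.cj q2⁻¹ A = H14.cj q1 B := by
    have h3 : (q1⁻¹ * q2⁻¹) * z * (q1⁻¹ * q2⁻¹)⁻¹ = v := by
      calc (q1⁻¹ * q2⁻¹) * z * (q1⁻¹ * q2⁻¹)⁻¹ = q1⁻¹ * (q2⁻¹ * z * q2) * q1 := by group
        _ = (q1⁻¹ * v * q1) * (q1⁻¹ * z * q1) := by rw [e3]; group
        _ = v := by rw [e4, e5, mul_assoc, hzv, ← mul_assoc, h.zz, one_mul]
    have h4 := h.cj _ h3
    rw [← h4, cj_cj, mul_inv_cancel_left]
  have h3 := S5422.nxs_cj h.hB q1
  rw [e1] at h3
  have hz3 : z ∈ H14.cj q1 B := by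
    rw [H14.mem_cj, e5]; exact h.zB
  have hc : q1 * q2 * q1⁻¹ ∈ H14.cj q1 B := H14.conj_mem_cj.2 hq2
  have hd : q2⁻¹ * q1 * q2 ∈ H14.cj q1 B := by
    rw [← hQ3, H14.mem_cj]
    have : q2⁻¹⁻¹ * (q2⁻¹ * q1 * q2) * q2⁻¹ = q1 := by group
    rw [this]; exact hq1
  have hq1z := h.hA.z_comm q1 hq1
  have hcz : z * (q1 * q2 * q1⁻¹)⁻¹ ≠ (q1 * q2 * q1⁻¹)⁻¹ * z := by
    intro h4
    apply h2
    have h5 : (q1 * q2 * q1⁻¹) * z = z * (q1 * q2 * q1⁻¹) := by
      calc (q1 * q2 * q1⁻¹) * z = (q1 * q2 * q1⁻¹) * (z * (q1 * q2 * q1⁻¹)⁻¹) * (q1 * q2 * q1⁻¹) := by group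
        _ = (q1 * q2 * q1⁻¹) * ((q1 * q2 * q1⁻¹)⁻¹ * z) * (q1 * q2 * q1⁻¹) := by rw [h4]
        _ = _ := by group
    have e6 : q1⁻¹ * z = z * q1⁻¹ := h.hA.z_comm _ (A.inv_mem hq1)
    calc q2 * z = q1⁻¹ * (q1 * q2 * (z * q1⁻¹)) * q1 := by group
      _ = q1⁻¹ * (q1 * q2 * (q1⁻¹ * z)) * q1 := by rw [e6]
      _ = q1⁻¹ * ((q1 * q2 * q1⁻¹) * z) * q1 := by group
      _ = q1⁻¹ * (z * (q1 * q2 * q1⁻¹)) * q1 := by rw [h5]
      _ = (q1⁻¹ * z) * (q1 * q2) := by group
      _ = (z * q1⁻¹) * (q1 * q2) := by rw [e6]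
      _ = z * q2 := by group
  have hdz : z * (q2⁻¹ * q1 * q2) ≠ (q2⁻¹ * q1 * q2) * z := by
    intro h4
    apply h1
    have h5 : q1 * (v * z) = (v * z) * q1 := by
      rw [← e2]
      calc q1 * (q2 * z * q2⁻¹) = q2 * ((q2⁻¹ * q1 * q2) * z) * q2⁻¹ := by group
        _ = q2 * (z * (q2⁻¹ * q1 * q2)) * q2⁻¹ := by rw [h4]
        _ = _ := by group
    calc q1 * v = q1 * v * (z * z) := by rw [h.zz, mul_one]
      _ = (q1 * (v * z)) * z := by group
      _ = v * (z * q1) * z := by rw [h5]; group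
      _ = v * (q1 * z) * z := by rw [hq1z]
      _ = v * q1 * (z * z) := by group
      _ = v * q1 := by rw [h.zz, mul_one]
  have hcomm := h3.comm_mul hz3 (inv_mem hc) hd hcz hdz
  -- pull back to `B`
  have hmem : (q1 * q2 * q1⁻¹)⁻¹ * (q2⁻¹ * q1 * q2) ∈ H14.cj q1 B := mul_mem (inv_mem hc) hd
  rw [H14.mem_cj] at hmem
  set w := (q1 * q2 * q1⁻¹)⁻¹ * (q2⁻¹ * q1 * q2) with hw
  have h5 : q1⁻¹ * w * q1 ∈ RR A B z v := by
    apply mem_sup_left
    refine ⟨hmem, mem_cent.2 ?_⟩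
    calc q1⁻¹ * w * q1 * z = q1⁻¹ * w * (q1 * z) := by group
      _ = q1⁻¹ * w * (z * q1) := by rw [hq1z]
      _ = q1⁻¹ * (w * z) * q1 := by group
      _ = q1⁻¹ * (z * w) * q1 := by rw [hcomm]
      _ = (q1⁻¹ * z) * w * q1 := by group
      _ = (z * q1⁻¹) * w * q1 := by rw [h.hA.z_comm _ (A.inv_mem hq1)]
      _ = z * (q1⁻¹ * w * q1) := by group
  have h6 := h.A_norm hq1 _ h5
  have e : q1 * (q1⁻¹ * w * q1) * q1⁻¹ = w := by group
  rwa [e] at h6

theorem mem_RR_A (h : Sit A B z v) {q1 y : G} (hq1 : q1 ∈ A) (h1 : q1 * v ≠ v * q1) (hy : y ∈ A) :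
    y ∈ RR A B z v ∨ q1⁻¹ * y ∈ RR A B z v := by
  by_cases h2 : y * v = v * y
  · left
    exact mem_sup_right ⟨hy, mem_cent.2 h2⟩
  · right
    refine mem_sup_right ⟨A.mul_mem (A.inv_mem hq1) hy, mem_cent.2 ?_⟩
    refine (h.hA.comm_mul h.vA (A.inv_mem hq1) hy (fun h3 => h1 ?_) (fun h3 => h2 h3.symm)).symm
    calc q1 * v = q1 * (v * q1⁻¹) * q1 := by group
      _ = q1 * (q1⁻¹ * v) * q1 := by rw [h3]
      _ = v * q1 := by group

theorem z_mem_RR (h : Sit A B z v) : z ∈ RR A B z v :=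
  mem_sup_left ⟨h.zB, mem_cent.2 rfl⟩

theorem v_mem_RR (h : Sit A B z v) : v ∈ RR A B z v := by
  rw [rr_symm]; exact h.symm.z_mem_RR

theorem sq_mem (h : Sit A B z v) {q : G} (hq : q ∈ A) : q * q ∈ RR A B z v := by
  rcases h.hA.sq q hq with h1 | h1
  · rw [h1]; exact one_mem _
  · rw [h1]; exact h.z_mem_RR

theorem words (h : Sit A B z v) {q1 q2 : G} (hq1 : q1 ∈ A) (hq2 : q2 ∈ B) (h1 : q1 * v ≠ v * q1)
    (h2 : q2 * z ≠ z * q2) {x : G} (hx : x ∈ A ⊔ B) : ∃ r ∈ RR A B z v,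
    x = r ∨ x = q1 * r ∨ x = q2 * r ∨ x = q1 * q2 * r ∨ x = q2 * q1 * r ∨ x = q1 * q2 * q1 * r := by
  set X := A ⊔ B with hX
  haveI : ((RR A B z v).subgroupOf X).Normal := normal_subgroupOf_of_le_normalizer h.X_le_normalizer
  have hq1X : q1 ∈ X := (le_sup_left : A ≤ X) hq1
  have hq2X : q2 ∈ X := (le_sup_right : B ≤ X) hq2
  set π := QuotientGroup.mk' ((RR A B z v).subgroupOf X) with hπ
  have hπ1 : ∀ y : X, π y = 1 ↔ (y : G) ∈ RR A B z v := fun y => by
    rw [hπ, QuotientGroup.mk'_apply, QuotientGroup.eq_one_iff, mem_subgroupOf]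
  set a := π ⟨q1, hq1X⟩ with ha
  set b := π ⟨q2, hq2X⟩ with hb
  have ha2 : a * a = 1 := by
    rw [ha, ← map_mul, hπ1]; exact h.sq_mem hq1
  have hb2 : b * b = 1 := by
    rw [hb, ← map_mul, hπ1]
    have := h.symm.sq_mem hq2
    rwa [← rr_symm] at this
  have hbr : (a * b * a⁻¹)⁻¹ * (b⁻¹ * a * b) = 1 := by
    have h3 := h.braid hq1 hq2 h1 h2
    have h4 := (hπ1 ((⟨q1, hq1X⟩ * ⟨q2, hq2X⟩ * ⟨q1, hq1X⟩⁻¹)⁻¹ * (⟨q2, hq2X⟩⁻¹ * ⟨q1, hq1X⟩ * ⟨q2, hq2X⟩))).2 h3
    simpa only [map_mul, map_inv] using h4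
  have hai : a⁻¹ = a := inv_eq_of_mul_eq_one_left ha2
  have hbi : b⁻¹ = b := inv_eq_of_mul_eq_one_left hb2
  have hbr' : a * b * a = b * a * b := by
    rw [hai, hbi, inv_mul_eq_one] at hbr
    exact hbr
  have hgen : ∀ y : X, π y ∈ closure ({a, b} : Set (X ⧸ (RR A B z v).subgroupOf X)) := by
    have h3 : X ≤ ((closure ({a, b} : Set (X ⧸ (RR A B z v).subgroupOf X))).comap π).map X.subtype := by
      apply sup_le
      · intro y hy
        refine ⟨⟨y, (le_sup_left : A ≤ X) hy⟩, ?_, rfl⟩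
        refine mem_comap.2 ?_
        rcases h.mem_RR_A hq1 h1 hy with h4 | h4
        · rw [(hπ1 ⟨y, (le_sup_left : A ≤ X) hy⟩).2 h4]; exact one_mem _
        · have h5 := (hπ1 (⟨q1, hq1X⟩⁻¹ * ⟨y, (le_sup_left : A ≤ X) hy⟩)).2 h4
          rw [map_mul, map_inv, inv_mul_eq_one] at h5
          rw [← h5]
          exact Subgroup.subset_closure (Or.inl rfl)
      · intro y hy
        refine ⟨⟨y, (le_sup_right : B ≤ X) hy⟩, ?_, rfl⟩
        refine mem_comap.2 ?_
        have h6 := h.symm.mem_RR_A hq2 h2 hy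
        rw [← rr_symm] at h6
        rcases h6 with h4 | h4
        · rw [(hπ1 ⟨y, (le_sup_right : B ≤ X) hy⟩).2 h4]; exact one_mem _
        · have h5 := (hπ1 (⟨q2, hq2X⟩⁻¹ * ⟨y, (le_sup_right : B ≤ X) hy⟩)).2 h4
          rw [map_mul, map_inv, inv_mul_eq_one] at h5
          rw [← h5]
          exact Subgroup.subset_closure (Or.inr rfl)
    intro y
    obtain ⟨y', hy', he⟩ := h3 y.2
    have : y' = y := Subtype.ext he
    rw [← this]; exact hy'
  have hsix := six ha2 hb2 hbr' (hgen ⟨x, hx⟩)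
  have key : ∀ (w : X), π ⟨x, hx⟩ = π w → ∃ r ∈ RR A B z v, x = (w : G) * r := by
    intro w hw
    refine ⟨(w : G)⁻¹ * x, ?_, by group⟩
    have h5 : π (w⁻¹ * ⟨x, hx⟩) = 1 := by rw [map_mul, map_inv, hw, inv_mul_cancel]
    exact (hπ1 _).1 h5
  rcases hsix with h3 | h3 | h3 | h3 | h3 | h3
  · obtain ⟨r, hr, he⟩ := key 1 (by rw [h3, map_one])
    exact ⟨r, hr, Or.inl (by simpa using he)⟩
  · obtain ⟨r, hr, he⟩ := key ⟨q1, hq1X⟩ h3
    exact ⟨r, hr, Or.inr (Or.inl he)⟩
  · obtain ⟨r, hr, he⟩ := key ⟨q2, hq2X⟩ h3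
    exact ⟨r, hr, Or.inr (Or.inr (Or.inl he))⟩
  · obtain ⟨r, hr, he⟩ := key (⟨q1, hq1X⟩ * ⟨q2, hq2X⟩) (by rw [h3, map_mul])
    exact ⟨r, hr, Or.inr (Or.inr (Or.inr (Or.inl he)))⟩
  · obtain ⟨r, hr, he⟩ := key (⟨q2, hq2X⟩ * ⟨q1, hq1X⟩) (by rw [h3, map_mul])
    exact ⟨r, hr, Or.inr (Or.inr (Or.inr (Or.inr (Or.inl he))))⟩
  · obtain ⟨r, hr, he⟩ := key (⟨q1, hq1X⟩ * ⟨q2, hq2X⟩ * ⟨q1, hq1X⟩) (by rw [h3, map_mul, map_mul])
    exact ⟨r, hr, Or.inr (Or.inr (Or.inr (Or.inr (Or.inr he))))⟩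

theorem q_acts (h : Sit A B z v) {q1 : G} (hq1 : q1 ∈ A) (h1 : q1 * v ≠ v * q1) :
    q1 * v * q1⁻¹ = z * v ∧ q1 * z * q1⁻¹ = z ∧ q1 * (z * v) * q1⁻¹ = v := by
  have e1 : q1 * v * q1⁻¹ = z * v := by
    rcases h.conj_v hq1 with h3 | h3
    · exact absurd (comm_of_conj h3) h1
    · exact h3
  have e2 := h.conj_z hq1
  refine ⟨e1, e2, ?_⟩
  calc q1 * (z * v) * q1⁻¹ = (q1 * z * q1⁻¹) * (q1 * v * q1⁻¹) := by group
    _ = v := by rw [e1, e2, ← mul_assoc, h.zz, one_mul]

theorem RR_eq (h : Sit A B z v) : RR A B z v = (A ⊔ B) ⊓ centralizer (closure ({z, v} : Set G) : Set G) := by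
  apply le_antisymm
  · apply le_inf RR_le_X
    intro x hx
    have := h.le_zv hx
    exact mem_cent_V.2 ⟨mem_cent.1 this.1, mem_cent.1 this.2⟩
  · intro x hx
    obtain ⟨q1, hq1, h1⟩ := h.exists_q
    obtain ⟨q2, hq2, h2⟩ := h.symm.exists_q
    obtain ⟨r, hr, hw⟩ := h.words hq1 hq2 h1 h2 hx.1
    obtain ⟨hxz, hxv⟩ := mem_cent_V.1 hx.2
    have hrz := mem_cent.1 (h.le_zv hr).1
    have hrv := mem_cent.1 (h.le_zv hr).2
    obtain ⟨a1, a2, a3⟩ := h.q_acts hq1 h1
    obtain ⟨b1, b2, b3⟩ := h.symm.q_acts hq2 h2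
    have hzv := h.zv
    -- if `x = w r` then `w` centralizes `z` and `v`
    have key : ∀ w : G, x = w * r → w * z * w⁻¹ = z ∧ w * v * w⁻¹ = v := by
      intro w hw
      have hw' : w = x * r⁻¹ := by rw [hw]; group
      have hri : ∀ y, r * y = y * r → r⁻¹ * y * r = y := by
        intro y hy
        calc r⁻¹ * y * r = r⁻¹ * (y * r) := by group
          _ = r⁻¹ * (r * y) := by rw [hy]
          _ = y := by group
      constructor
      · rw [hw']
        calc x * r⁻¹ * z * (x * r⁻¹)⁻¹ = x * (r⁻¹ * z * r) * x⁻¹ := by group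
          _ = z := by rw [hri z hrz, hxz]; group
      · rw [hw']
        calc x * r⁻¹ * v * (x * r⁻¹)⁻¹ = x * (r⁻¹ * v * r) * x⁻¹ := by group
          _ = v := by rw [hri v hrv, hxv]; group
    have hzv1 : z * v ≠ v := fun h3 => h.hA.z_ne (by simpa using h3)
    have hzv2 : v * z ≠ z := fun h3 => h.hB.z_ne (by simpa using h3)
    rcases hw with rfl | hw | hw | hw | hw | hw
    · exact hr
    · exact absurd ((key _ hw).2.symm.trans a1) (fun h3 => hzv1 h3.symm)
    · exact absurd ((key _ hw).1.symm.trans b1) (fun h3 => hzv2 h3.symm)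
    · exfalso
      have h3 := (key _ hw).2
      have e : q1 * q2 * v * (q1 * q2)⁻¹ = q1 * (q2 * v * q2⁻¹) * q1⁻¹ := by group
      rw [e, b2, a1] at h3
      exact hzv1 h3
    · exfalso
      have h3 := (key _ hw).1
      have e : q2 * q1 * z * (q2 * q1)⁻¹ = q2 * (q1 * z * q1⁻¹) * q2⁻¹ := by group
      rw [e, a2, b1] at h3
      exact hzv2 h3
    · exfalso
      have h3 := (key _ hw).1
      have e : q1 * q2 * q1 * z * (q1 * q2 * q1)⁻¹ = q1 * (q2 * (q1 * z * q1⁻¹) * q2⁻¹) * q1⁻¹ := by group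
      rw [e, a2, b1, hzv, a3] at h3
      exact h.ne h3

theorem mem_or (h : Sit A B z v) {q y : G} (hq : q ∈ A) (h1 : q * v ≠ v * q) (hy : y ∈ A) :
    y * v = v * y ∨ (q⁻¹ * y) * v = v * (q⁻¹ * y) := by
  by_cases h2 : y * v = v * y
  · exact Or.inl h2
  · right
    refine (h.hA.comm_mul h.vA (A.inv_mem hq) hy (fun h3 => h1 ?_) (fun h3 => h2 h3.symm)).symm
    calc q * v = q * (v * q⁻¹) * q := by group
      _ = q * (q⁻¹ * v) * q := by rw [h3]
      _ = v * q := by group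

/-- an element commuting with `A ⊓ C(v)` and with `q` commutes with `A` -/
theorem comm_all (h : Sit A B z v) {q c : G} (hq : q ∈ A) (h1 : q * v ≠ v * q)
    (hc : ∀ d ∈ A, d * v = v * d → c * d = d * c) (hcq : c * q = q * c) : ∀ y ∈ A, c * y = y * c := by
  intro y hy
  rcases h.mem_or hq h1 hy with h2 | h2
  · exact hc y hy h2
  · have h3 := hc _ (A.mul_mem (A.inv_mem hq) hy) h2
    calc c * y = (c * q) * (q⁻¹ * y) := by group
      _ = q * (c * (q⁻¹ * y)) := by rw [hcq]; group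
      _ = q * ((q⁻¹ * y) * c) := by rw [h3]
      _ = y * c := by group

theorem cent_in (h : Sit A B z v) {y : G} (hy : y ∈ A)
    (hc : ∀ d ∈ A, d * v = v * d → y * d = d * y) : y = 1 ∨ y = z ∨ y = v ∨ y = z * v := by
  obtain ⟨q, hq, h1⟩ := h.exists_q
  by_cases h2 : q * y = y * q
  · rcases h.hA.cent y hy (h.comm_all hq h1 hc h2.symm) with h3 | h3
    · exact Or.inl h3
    · exact Or.inr (Or.inl h3)
  · have h3 := h.hA.comm_mul hq h.vA hy h1 h2
    have h4 : ∀ d ∈ A, d * v = v * d → (v * y) * d = d * (v * y) := by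
      intro d hd hdv
      calc (v * y) * d = v * (y * d) := by group
        _ = v * (d * y) := by rw [hc d hd hdv]
        _ = (v * d) * y := by group
        _ = d * (v * y) := by rw [← hdv]; group
    rcases h.hA.cent _ (A.mul_mem h.vA hy) (h.comm_all hq h1 h4 h3.symm) with h5 | h5
    · right; right; left
      calc y = v * (v * y) := by rw [← mul_assoc, h.vv, one_mul]
        _ = v := by rw [h5, mul_one]
    · right; right; right
      calc y = v * (v * y) := by rw [← mul_assoc, h.vv, one_mul]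
        _ = z * v := by rw [h5, h.zv]

theorem cent_D (h : Sit A B z v) {c : G} (hc : ∀ d ∈ A, d * v = v * d → c * d = d * c) :
    c = 1 ∨ c = z ∨ c = v ∨ c = z * v := by
  have hcz : c * z = z * c := hc z h.hA.z_mem h.zv.symm
  have hcv : c * v = v * c := hc v h.vA rfl
  obtain ⟨q, hq, h1⟩ := h.exists_q
  have hyA : c * q * c⁻¹ * q⁻¹ ∈ A :=
    A.mul_mem ((mem_normalizer_iff.1 ((h.hA.norm c).2 hcz) q).1 hq) (A.inv_mem hq)
  obtain ⟨a1, a2, a3⟩ := h.q_acts hq h1
  have hyD : ∀ d ∈ A, d * v = v * d → (c * q * c⁻¹ * q⁻¹) * d = d * (c * q * c⁻¹ * q⁻¹) := by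
    intro d hd hdv
    have hd'A : q⁻¹ * d * q ∈ A := A.mul_mem (A.mul_mem (A.inv_mem hq) hd) hq
    have hd'v : (q⁻¹ * d * q) * v = v * (q⁻¹ * d * q) := by
      have h2 := (h.conj_cent (A.inv_mem hq) (h.hA.z_comm d hd) hdv).2
      simpa using h2
    have h2 := hc _ hd'A hd'v
    have h3 := hc d hd hdv
    have h3i : c⁻¹ * d = d * c⁻¹ := by
      calc c⁻¹ * d = c⁻¹ * (d * c) * c⁻¹ := by group
        _ = c⁻¹ * (c * d) * c⁻¹ := by rw [h3]
        _ = d * c⁻¹ := by group
    have h2i : c⁻¹ * (q⁻¹ * d * q) = (q⁻¹ * d * q) * c⁻¹ := by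
      calc c⁻¹ * (q⁻¹ * d * q) = c⁻¹ * ((q⁻¹ * d * q) * c) * c⁻¹ := by group
        _ = c⁻¹ * (c * (q⁻¹ * d * q)) * c⁻¹ := by rw [h2]
        _ = (q⁻¹ * d * q) * c⁻¹ := by group
    calc (c * q * c⁻¹ * q⁻¹) * d = c * q * (c⁻¹ * (q⁻¹ * d * q)) * q⁻¹ := by group
      _ = c * q * ((q⁻¹ * d * q) * c⁻¹) * q⁻¹ := by rw [h2i]
      _ = (c * d) * q * c⁻¹ * q⁻¹ := by group
      _ = (d * c) * q * c⁻¹ * q⁻¹ := by rw [h3]
      _ = d * (c * q * c⁻¹ * q⁻¹) := by group
  have hvy := h.cent_in hyA hyD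
  have hbad : ∀ y : G, y * y = 1 → q * y = z * (y * q) → c * q * c⁻¹ * q⁻¹ = y → y ∈ A → False := by
    intro y hyy hqy he hy
    have h2 : c * q * c⁻¹ = y * q := by rw [← he]; group
    have h3 : c * (q * q) * c⁻¹ = q * q := by
      rcases h.hA.sq q hq with h4 | h4
      · rw [h4]; group
      · rw [h4]; exact conj_of_comm hcz
    have h4 : c * (q * q) * c⁻¹ = z * (q * q) := by
      calc c * (q * q) * c⁻¹ = (c * q * c⁻¹) * (c * q * c⁻¹) := by group
        _ = y * (q * y) * q := by rw [h2]; group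
        _ = y * (z * (y * q)) * q := by rw [hqy]
        _ = (y * z) * y * (q * q) := by group
        _ = (z * y) * y * (q * q) := by rw [h.hA.z_comm y hy]
        _ = z * (y * y) * (q * q) := by group
        _ = z * (q * q) := by rw [hyy, mul_one]
    rw [h3] at h4
    exact h.hA.z_ne (by simpa using h4)
  have hqv : q * v = z * (v * q) := by
    calc q * v = (q * v * q⁻¹) * q := by group
      _ = _ := by rw [a1]; group
  rcases hvy with h2 | h2 | h2 | h2
  · have h3 : c * q = q * c := by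
      calc c * q = (c * q * c⁻¹ * q⁻¹) * q * c := by group
        _ = _ := by rw [h2, one_mul]
    rcases h.hA.cent_G c (h.comm_all hq h1 hc h3) with h4 | h4
    · exact Or.inl h4
    · exact Or.inr (Or.inl h4)
  · have h3 : c * q = z * q * c := by
      calc c * q = (c * q * c⁻¹ * q⁻¹) * q * c := by group
        _ = _ := by rw [h2]
    have h4 : (v * c) * q = q * (v * c) := by
      calc (v * c) * q = v * (c * q) := by group
        _ = v * z * q * c := by rw [h3]; group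
        _ = z * (v * q) * c := by rw [h.zv]; group
        _ = (q * v) * c := by rw [hqv]
        _ = q * (v * c) := by group
    have h5 : ∀ d ∈ A, d * v = v * d → (v * c) * d = d * (v * c) := by
      intro d hd hdv
      calc (v * c) * d = v * (c * d) := by group
        _ = (v * d) * c := by rw [hc d hd hdv]; group
        _ = d * (v * c) := by rw [← hdv]; group
    rcases h.hA.cent_G _ (h.comm_all hq h1 h5 h4) with h6 | h6
    · right; right; left
      calc c = v * (v * c) := by rw [← mul_assoc, h.vv, one_mul]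
        _ = v := by rw [h6, mul_one]
    · right; right; right
      calc c = v * (v * c) := by rw [← mul_assoc, h.vv, one_mul]
        _ = z * v := by rw [h6, h.zv]
  · exact (hbad v h.vv hqv h2 h.vA).elim
  · have hzz := h.zz
    have hzq := h.hA.z_comm q hq
    refine (hbad (z * v) ?_ ?_ h2 (A.mul_mem h.hA.z_mem h.vA)).elim
    · calc z * v * (z * v) = z * (v * z) * v := by group
        _ = (z * z) * (v * v) := by rw [h.zv]; group
        _ = 1 := by rw [hzz, h.vv, one_mul]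
    · calc q * (z * v) = (q * z) * v := by group
        _ = z * (q * v) := by rw [hzq]; group
        _ = z * (z * v * q) := by rw [hqv]; group

end Sit

theorem nxs_of_large [Finite G] {Q : Subgroup G} {z : G} (hQ : Cfsg.IsLargeExtraspecial Q)
    (hz : ((Subgroup.center ↥Q).map Q.subtype) = Subgroup.zpowers z) (hz2 : orderOf z = 2) : NXS Q z := by
  obtain ⟨z', h⟩ := lxs_of_isLargeExtraspecial Q hQ
  have h1 := h.center_eq
  rw [hz] at h1
  have hzz : z * z = 1 := by
    have := pow_orderOf_eq_one z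
    rwa [hz2, pow_two] at this
  have hz1 : z ≠ 1 := by
    intro h3
    rw [h3, orderOf_one] at hz2
    omega
  have h2 : z = z' := H4.zpowers_invol_inj hzz h.z_sq hz1 h1
  rw [h2]
  exact h.toNXS

theorem sit_of_nxs [Finite G] {Q : Subgroup G} {z : G} (h : NXS Q z) (hcard : 8 < Nat.card Q) (g : G)
    (hgH : g ∉ centralizer ({z} : Set G)) (hgQ : g * z * g⁻¹ ∈ Q) :
    Sit Q (Q.map (MulAut.conj g).toMonoidHom) z (g * z * g⁻¹) := by
  have hne : g * z * g⁻¹ ≠ z := fun h1 => hgH (mem_centralizer_singleton_iff.2 (Sit.comm_of_conj h1))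
  exact ⟨h, S5422.nxs_cj h g, hgQ, S5422.z_mem_cj h rfl hgQ hne hcard, hne,
    fun r hr => S5422.cj_eq_of_conj h hr⟩

end Cfsg.Agent.H2.LX
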