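import Cfsg.Agent.S0063
import Cfsg.Agent.S0124
import Cfsg.Agent.S4209
import Cfsg.Agent.S4210

set_option autoImplicit false
set_option linter.all false
open Cfsg Subgroup
open scoped commutatorElement

namespace Cfsg.Agent.H2.Om4

variable {R : Type*} [Group R] [Finite R] {p : ℕ} [hp : Fact p.Prime]

theorem lcs_three {m : ℕ} (hm : Nat.card R = p ^ m) (h4 : m ≤ 4) :
    (⊤ : Subgroup R).lowerCentralSeries 3 = ⊥ := by
  have hR : IsPGroup p R := IsPGroup.of_card hm
  haveI : Group.IsNilpotent R := hR.isNilpotent
  by_cases h1 : 1 < m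
  · rw [Subgroup.lowerCentralSeries_eq_bot_iff_nilpotencyClass_le]
    have := S0063.result p m hm h1
    omega
  · have hcyc : IsCyclic R := by
      rcases (by omega : m = 0 ∨ m = 1) with rfl | rfl
      · rw [pow_zero] at hm
        haveI : Subsingleton R := (Nat.card_eq_one_iff_unique.1 hm).1
        infer_instance
      · rw [pow_one] at hm
        exact isCyclic_of_prime_card hm
    have hc : (⊤ : Subgroup R).lowerCentralSeries 1 = ⊥ := by
      rw [Subgroup.top_lowerCentralSeries_one, _root_.commutator_def, Subgroup.commutator_eq_bot_iff_le_centralizer]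
      intro x _
      rw [mem_centralizer_iff]
      intro y _
      letI := hcyc.commGroup
      exact mul_comm y x
    rw [eq_bot_iff, ← hc]
    exact Subgroup.lowerCentralSeries_antitone _ (by norm_num)

theorem regular (h3 : 3 < p) {m : ℕ} (hm : Nat.card R = p ^ m) (h4 : m ≤ 4) : IsRegularPGroup p R := by
  refine S4209.result (IsPGroup.of_card hm) ?_
  rw [eq_bot_iff, ← lcs_three hm h4]
  exact Subgroup.lowerCentralSeries_antitone _ (by omega)

theorem mul_pow (h3 : 3 < p) {m : ℕ} (hm : Nat.card R = p ^ m) (h4 : m ≤ 4) {x y : R}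
    (hx : x ^ p = 1) (hy : y ^ p = 1) : (x * y) ^ p = 1 := by
  refine S0124.result h3 (IsPGroup.of_card hm) ?_ _ ?_
  · exact lcs_three hm h4
  · exact mul_mem (Subgroup.subset_closure hx) (Subgroup.subset_closure hy)

end Cfsg.Agent.H2.Om4
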