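import Cfsg.Prelude
import Cfsg.Agent.S0096
import Cfsg.Agent.H23.RankOne
import Cfsg.Agent.H23.Coprime2

set_option autoImplicit false
set_option linter.all false
open Cfsg Subgroup
open scoped commutatorElement

/-! `p`-groups with a cyclic maximal subgroup, `p` odd (helper2) -/

namespace Cfsg.Agent.H2.OmCyc

variable {R : Type*} [Group R] [Finite R] {p : ℕ} [hp : Fact p.Prime]

theorem exp_card_le (C : Subgroup R) (hC : IsCyclic C) (hCi : C.index = p) (L : Subgroup R)
    (hL : ∀ x ∈ L, x ^ p = 1) : Nat.card L ≤ p ^ 2 := by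
  have h1 : Nat.card L = Nat.card (C ⊓ L : Subgroup R) * C.relIndex L := by
    have := Subgroup.relIndex_mul_relIndex (⊥ : Subgroup R) (C ⊓ L) L bot_le inf_le_right
    rw [Subgroup.relIndex_bot_left, Subgroup.relIndex_bot_left, Subgroup.inf_relIndex_right] at this
    exact this.symm
  have h2 : C.relIndex L ≤ p := by
    rw [← hCi, ← Subgroup.relIndex_top_right]
    exact Subgroup.relIndex_le_of_le_right le_top (by rw [Subgroup.relIndex_top_right, hCi]; exact hp.out.ne_zero)
  have h3 : Nat.card (C ⊓ L : Subgroup R) ≤ p := by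
    have h4 : IsCyclic (C ⊓ L : Subgroup R) := by
      have h5 : IsCyclic ((C ⊓ L).subgroupOf C) := inferInstance
      have e := Subgroup.subgroupOfEquivOfLe (inf_le_left : C ⊓ L ≤ C)
      exact isCyclic_of_surjective e e.surjective
    obtain ⟨g, hg⟩ := h4.exists_ofOrder_eq_natCard
    rw [← hg]
    exact orderOf_le_of_pow_eq_one hp.out.pos (Subtype.ext (hL g g.2.2))
  rw [h1, pow_two]
  exact Nat.mul_le_mul h3 h2

/-- a subgroup of order p ^ 2 and exponent p normalized by an element of order p outside it -/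
theorem exp_join (hp2 : p ≠ 2) (hR : IsPGroup p R) (E : Subgroup R) (hEn : E.Normal) (hEc : Nat.card E = p ^ 2)
    (hE1 : ∀ x ∈ E, x ^ p = 1) {x : R} (hx1 : x ^ p = 1) (hxE : x ∉ E) :
    ∃ L : Subgroup R, Nat.card L = p ^ 3 ∧ ∀ z ∈ L, z ^ p = 1 := by
  obtain ⟨L, hL⟩ : ∃ L, L = zpowers x ⊔ E := ⟨_, rfl⟩
  have hEL : E ≤ L := by rw [hL]; exact le_sup_right
  have hxL : x ∈ L := by rw [hL]; exact (le_sup_left : zpowers x ≤ zpowers x ⊔ E) (mem_zpowers x)
  have hidx : Nat.card L = Nat.card E * E.relIndex L := by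
    have := Subgroup.relIndex_mul_relIndex (⊥ : Subgroup R) E L bot_le hEL
    rw [Subgroup.relIndex_bot_left, Subgroup.relIndex_bot_left] at this
    exact this.symm
  have hrel : E.relIndex L ≤ p := by
    rw [hL, Subgroup.relIndex_sup_right]
    have h1 : E.relIndex (zpowers x) ∣ Nat.card (zpowers x) := Subgroup.relIndex_dvd_card _ _
    refine (Nat.le_of_dvd Nat.card_pos h1).trans ?_
    rw [Nat.card_zpowers]
    exact orderOf_le_of_pow_eq_one hp.out.pos hx1
  have hL3 : Nat.card L = p ^ 3 := by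
    obtain ⟨m, hm⟩ := IsPGroup.iff_card.mp (hR.to_subgroup L)
    have h1 : Nat.card L ≤ p ^ 3 := by
      rw [hidx, hEc]
      calc p ^ 2 * E.relIndex L ≤ p ^ 2 * p := Nat.mul_le_mul_left _ hrel
        _ = p ^ 3 := by ring
    have h2 : p ^ 2 < Nat.card L := by
      rw [← hEc]
      refine lt_of_le_of_ne (Subgroup.card_le_of_le hEL) ?_
      intro h
      have := Subgroup.eq_of_le_of_card_ge hEL h.ge
      exact hxE (by rw [this]; exact hxL)
    rw [hm] at h1 h2 ⊢
    have h4 := (Nat.pow_le_pow_iff_right hp.out.one_lt).mp h1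
    have h5 := (Nat.pow_lt_pow_iff_right hp.out.one_lt).mp h2
    congr 1
    omega
  refine ⟨L, hL3, ?_⟩
  -- the class of L is at most two
  have hLp : IsPGroup p L := hR.to_subgroup L
  obtain ⟨E', hE'⟩ : ∃ E', E' = E.subgroupOf L := ⟨_, rfl⟩
  haveI hE'n : E'.Normal := by
    rw [hE']
    exact Subgroup.normal_subgroupOf
  have hE'c : Nat.card E' = p ^ 2 := by
    rw [hE', Nat.card_congr (Subgroup.subgroupOfEquivOfLe hEL).toEquiv, hEc]
  -- E is commutative, L/E has order p
  have hcE : ∀ a ∈ E, ∀ b ∈ E, a * b = b * a := by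
    intro a ha b hb
    letI := IsPGroup.commGroupOfCardEqPrimeSq hEc
    exact congrArg Subtype.val (mul_comm (⟨a, ha⟩ : E) ⟨b, hb⟩)
  -- the derived subgroup of L lies in E, and E ∩ Z(L) contains it
  have hLE : commutator L ≤ E' := by
    have h1 : E'.index = p := by
      have := E'.card_mul_index
      rw [hE'c, hL3] at this
      have h2 : p ^ 3 = p ^ 2 * p := by ring
      rw [h2] at this
      exact Nat.eq_of_mul_eq_mul_left (pow_pos hp.out.pos 2) this
    have h2 : IsCyclic (L ⧸ E') := isCyclic_of_prime_card (p := p) (by rw [← Subgroup.index_eq_card, h1])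
    rw [_root_.commutator_def, Subgroup.commutator_le]
    intro a _ b _
    rw [← QuotientGroup.eq_one_iff]
    letI := h2.commGroup
    have h3 : ((⁅a, b⁆ : L) : L ⧸ E') = ⁅(a : L ⧸ E'), (b : L ⧸ E')⁆ := rfl
    rw [h3, commutatorElement_eq_one_iff_mul_comm]
    exact mul_comm _ _
  have hcl : ⁅commutator L, (⊤ : Subgroup L)⁆ = ⊥ := by
    by_contra hne
    have h0 : commutator L ≠ ⊥ := by
      intro h
      apply hne
      rw [h]
      exact Subgroup.commutator_bot_left _
    have h1 : ⁅commutator L, (⊤ : Subgroup L)⁆ < commutator L :=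
      H23.commutator_lt_of_isPGroup (hLp.to_subgroup _) (hLp.to_subgroup ⊤) (by rw [normalizer_eq_top]) h0
    -- then the derived subgroup is E' and L/K3 has order p^2, abelian
    have h2 : Nat.card (commutator L) ≤ p ^ 2 := by
      rw [← hE'c]
      exact Subgroup.card_le_of_le hLE
    obtain ⟨i, hi⟩ := IsPGroup.iff_card.mp (hLp.to_subgroup (commutator L))
    obtain ⟨j, hj⟩ := IsPGroup.iff_card.mp (hLp.to_subgroup ⁅commutator L, (⊤ : Subgroup L)⁆)
    have h3 : Nat.card (⁅commutator L, (⊤ : Subgroup L)⁆ : Subgroup L) < Nat.card (commutator L) := by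
      refine lt_of_le_of_ne (Subgroup.card_le_of_le h1.le) ?_
      intro h
      exact h1.ne (Subgroup.eq_of_le_of_card_ge h1.le h.ge)
    have h4 : 1 < Nat.card (⁅commutator L, (⊤ : Subgroup L)⁆ : Subgroup L) := (Subgroup.one_lt_card_iff_ne_bot _).2 hne
    rw [hi] at h2 h3
    rw [hj] at h3 h4
    have h5 := (Nat.pow_le_pow_iff_right hp.out.one_lt).mp h2
    have h6 := (Nat.pow_lt_pow_iff_right hp.out.one_lt).mp h3
    have h7 : 0 < j := by
      rcases Nat.eq_zero_or_pos j with h | h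
      · rw [h, pow_zero] at h4; omega
      · exact h
    have h8 : i = 2 := by omega
    have h9 : j = 1 := by omega
    -- the quotient by K3 has order p^2
    have hc2 : Nat.card (L ⧸ ⁅commutator L, (⊤ : Subgroup L)⁆) = p ^ 2 := by
      have h10 := Subgroup.card_eq_card_quotient_mul_card_subgroup ⁅commutator L, (⊤ : Subgroup L)⁆
      rw [hL3, hj, h9, pow_one] at h10
      have h2 : p ^ 3 = p ^ 2 * p := by ring
      rw [h2] at h10
      exact (Nat.eq_of_mul_eq_mul_right hp.out.pos h10).symm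
    letI := IsPGroup.commGroupOfCardEqPrimeSq hc2
    apply h1.ne
    apply le_antisymm h1.le
    rw [_root_.commutator_def, Subgroup.commutator_le]
    intro a _ b _
    rw [← _root_.commutator_def, ← QuotientGroup.eq_one_iff]
    have h3 : ((⁅a, b⁆ : L) : L ⧸ ⁅commutator L, (⊤ : Subgroup L)⁆) =
      ⁅(a : L ⧸ ⁅commutator L, (⊤ : Subgroup L)⁆), (b : L ⧸ ⁅commutator L, (⊤ : Subgroup L)⁆)⁆ := rfl
    rw [h3, commutatorElement_eq_one_iff_mul_comm]
    exact mul_comm _ _
  intro z hz
  have hz' : z ∈ zpowers x ⊔ E := by rw [← hL]; exact hz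
  rw [← SetLike.mem_coe, Subgroup.mul_normal] at hz'
  obtain ⟨a, ha, e, he, rfl⟩ := hz'
  obtain ⟨k, rfl⟩ := mem_zpowers_iff.1 ha
  have h1 := S0096.result hp2 hLp hcl (⟨x ^ k, zpow_mem hxL k⟩ * ⟨e, hEL he⟩) (by
    refine mul_mem (Subgroup.subset_closure ?_) (Subgroup.subset_closure ?_)
    · show (⟨x ^ k, _⟩ : L) ^ p = 1
      apply Subtype.ext
      show (x ^ k) ^ p = 1
      rw [← zpow_natCast, ← zpow_mul, mul_comm, zpow_mul, zpow_natCast, hx1, one_zpow]
    · show (⟨e, _⟩ : L) ^ p = 1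
      exact Subtype.ext (hE1 e he))
  exact congrArg Subtype.val h1

theorem exists_E (hp2 : p ≠ 2) (hR : IsPGroup p R) (hnc : ¬ IsCyclic R) (C : Subgroup R) (hC : IsCyclic C)
    (hCi : C.index = p) : ∃ E : Subgroup R, E.Normal ∧ Nat.card E = p ^ 2 ∧ ∀ x : R, x ∈ E ↔ x ^ p = 1 := by
  obtain ⟨E, hEn, hEc, hE1⟩ := H23.exists_normal_sq_of_odd hR hp2 hnc
  refine ⟨E, hEn, hEc, fun x => ⟨hE1 x, fun hx => ?_⟩⟩
  by_contra hxE
  obtain ⟨L, hL, hL1⟩ := exp_join hp2 hR E hEn hEc hE1 hx hxE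
  have h1 := exp_card_le C hC hCi L hL1
  rw [hL] at h1
  have := (Nat.pow_le_pow_iff_right hp.out.one_lt).mp h1
  omega

theorem el_of_card {E : Subgroup R} (hEc : Nat.card E = p ^ 2) (hE1 : ∀ x ∈ E, x ^ p = 1) :
    IsElementaryAbelian p E := by
  refine ⟨⟨⟨fun a b => ?_⟩⟩, hE1⟩
  letI := IsPGroup.commGroupOfCardEqPrimeSq hEc
  exact mul_comm a b

theorem main (hp2 : p ≠ 2) (hR : IsPGroup p R) (hnc : ¬ IsCyclic R) (C : Subgroup R) (hC : IsCyclic C)
    (hCi : C.index = p) : IsElementaryAbelian p (Subgroup.closure {x : R | x ^ p = 1}) ∧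
      Nat.card (Subgroup.closure {x : R | x ^ p = 1}) = p ^ 2 := by
  obtain ⟨E, hEn, hEc, hE⟩ := exists_E hp2 hR hnc C hC hCi
  have h1 : Subgroup.closure {x : R | x ^ p = 1} = E := by
    apply le_antisymm
    · rw [closure_le]
      intro x hx
      exact (hE x).2 hx
    · intro x hx
      exact Subgroup.subset_closure ((hE x).1 hx)
  rw [h1]
  exact ⟨el_of_card hEc (fun x hx => (hE x).1 hx), hEc⟩

/-- metacyclic -/
theorem metacyclic (hp2 : p ≠ 2) (hR : IsPGroup p R) (hm : IsMetacyclic R) (hnc : ¬ IsCyclic R) :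
    IsElementaryAbelian p (omegaOne p (⊤ : Subgroup R)) ∧ Nat.card ↥(omegaOne p (⊤ : Subgroup R)) = p ^ 2 := by
  obtain ⟨N, hN, hNc, hQc⟩ := hm
  obtain ⟨E, hEn, hEc, hE1⟩ := H23.exists_normal_sq_of_odd hR hp2 hnc
  -- T = elements whose p-th power lies in N
  have key : ∀ L : Subgroup R, (∀ x ∈ L, x ^ p = 1) → Nat.card L ≤ p ^ 2 := by
    intro L hL
    have h1 : Nat.card L = Nat.card (N ⊓ L : Subgroup R) * N.relIndex L := by
      have := Subgroup.relIndex_mul_relIndex (⊥ : Subgroup R) (N ⊓ L) L bot_le inf_le_right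
      rw [Subgroup.relIndex_bot_left, Subgroup.relIndex_bot_left, Subgroup.inf_relIndex_right] at this
      exact this.symm
    have h3 : Nat.card (N ⊓ L : Subgroup R) ≤ p := by
      have h4 : IsCyclic (N ⊓ L : Subgroup R) := by
        have h5 : IsCyclic ((N ⊓ L).subgroupOf N) := inferInstance
        have e := Subgroup.subgroupOfEquivOfLe (inf_le_left : N ⊓ L ≤ N)
        exact isCyclic_of_surjective e e.surjective
      obtain ⟨g, hg⟩ := h4.exists_ofOrder_eq_natCard
      rw [← hg]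
      exact orderOf_le_of_pow_eq_one hp.out.pos (Subtype.ext (hL g g.2.2))
    have h2 : N.relIndex L ≤ p := by
      have h5 : N.relIndex L = Nat.card (L.map (QuotientGroup.mk' N)) := by
        have h6 := Subgroup.relIndex_ker L (QuotientGroup.mk' N)
        rw [QuotientGroup.ker_mk'] at h6
        exact h6
      rw [h5]
      obtain ⟨g, hg⟩ := (inferInstance : IsCyclic (L.map (QuotientGroup.mk' N))).exists_ofOrder_eq_natCard
      rw [← hg]
      refine orderOf_le_of_pow_eq_one hp.out.pos (Subtype.ext ?_)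
      obtain ⟨x, hx, hxg⟩ := g.2
      show (g : R ⧸ N) ^ p = 1
      rw [← hxg, ← map_pow, hL x hx, map_one]
    rw [h1, pow_two]
    exact Nat.mul_le_mul h3 h2
  have hE : ∀ x : R, x ∈ E ↔ x ^ p = 1 := by
    refine fun x => ⟨hE1 x, fun hx => ?_⟩
    by_contra hxE
    obtain ⟨L, hL, hL1⟩ := exp_join hp2 hR E hEn hEc hE1 hx hxE
    have h1 := key L hL1
    rw [hL] at h1
    have := (Nat.pow_le_pow_iff_right hp.out.one_lt).mp h1
    omega
  have h1 : omegaOne p (⊤ : Subgroup R) = E := by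
    unfold omegaOne
    apply le_antisymm
    · rw [closure_le]
      rintro x ⟨-, hx⟩
      exact (hE x).2 hx
    · intro x hx
      exact Subgroup.subset_closure ⟨mem_top x, (hE x).1 hx⟩
  rw [h1]
  exact ⟨el_of_card hEc (fun x hx => (hE x).1 hx), hEc⟩

end Cfsg.Agent.H2.OmCyc
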