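import Cfsg.Prelude.Def_OddOrderLocal
import Cfsg.Agent.H2.OddSolv
import Mathlib.Order.OrderIsoNat

/-!
# The Puig series and the Puig subgroups
-/

set_option autoImplicit false
set_option linter.style.haveILetI false
set_option linter.unusedSectionVars false

universe u

namespace Cfsg.Agent.H2

open Cfsg
open scoped commutatorElement

/-! ### antitone iteration -/

section Seq

variable {α : Type*} [CompleteLattice α] {f : α → α} {a : ℕ → α}

theorem seq_even_le_odd (hf : Antitone f) (h0 : a 0 = ⊥) (hs : ∀ n, a (n + 1) = f (a n)) (n : ℕ) :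
    ∀ m : ℕ, a (2 * n) ≤ a (2 * m + 1) := by
  induction n with
  | zero => intro m; rw [mul_zero, h0]; exact bot_le
  | succ n ih =>
    intro m
    have h1 : ∀ m, a (2 * m + 2) ≤ a (2 * n + 1) := by
      intro m
      rw [hs (2 * m + 1), hs (2 * n)]
      exact hf (ih m)
    have e1 : 2 * (n + 1) = (2 * n + 1) + 1 := by ring
    rcases m with _ | m
    · rw [e1, hs (2 * n + 1), mul_zero, hs 0, h0]
      exact hf bot_le
    · have e2 : 2 * (m + 1) + 1 = (2 * m + 2) + 1 := by ring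
      rw [e1, e2, hs (2 * n + 1), hs (2 * m + 2)]
      exact hf (h1 m)

theorem seq_mono (hf : Antitone f) (h0 : a 0 = ⊥) (hs : ∀ n, a (n + 1) = f (a n)) (n : ℕ) :
    a (2 * n) ≤ a (2 * n + 2) ∧ a (2 * n + 3) ≤ a (2 * n + 1) := by
  induction n with
  | zero =>
    refine ⟨by rw [mul_zero, h0]; exact bot_le, ?_⟩
    rw [hs (2 * 0 + 2), hs (2 * 0), mul_zero, h0]
    exact hf bot_le
  | succ n ih =>
    have e1 : 2 * (n + 1) = (2 * n + 1) + 1 := by ring
    have h1 : a (2 * (n + 1)) ≤ a (2 * (n + 1) + 2) := by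
      have e2 : 2 * (n + 1) + 2 = (2 * n + 3) + 1 := by ring
      rw [e1, ← e1, e2, hs (2 * n + 3), e1, hs (2 * n + 1)]
      exact hf ih.2
    refine ⟨h1, ?_⟩
    have e3 : 2 * (n + 1) + 3 = (2 * (n + 1) + 2) + 1 := by ring
    rw [e3, hs (2 * (n + 1) + 2), hs (2 * (n + 1))]
    exact hf h1

theorem seq_monotone (hf : Antitone f) (h0 : a 0 = ⊥) (hs : ∀ n, a (n + 1) = f (a n)) :
    Monotone (fun n => a (2 * n)) ∧ Antitone (fun n => a (2 * n + 1)) :=
  ⟨monotone_nat_of_le_succ fun n => (seq_mono hf h0 hs n).1,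
    antitone_nat_of_succ_le fun n => (seq_mono hf h0 hs n).2⟩

theorem seq_stab [Finite α] (hf : Antitone f) (h0 : a 0 = ⊥) (hs : ∀ n, a (n + 1) = f (a n)) :
    ∃ k : ℕ, ∀ n : ℕ, k ≤ n → a (2 * n) = ⨆ i : ℕ, a (2 * i) ∧ a (2 * n + 1) = ⨅ i : ℕ, a (2 * i + 1) := by
  obtain ⟨hm, ha⟩ := seq_monotone hf h0 hs
  obtain ⟨k₁, hk₁⟩ := WellFoundedGT.monotone_chain_condition ⟨_, hm⟩
  obtain ⟨k₂, hk₂⟩ := WellFoundedLT.antitone_chain_condition ha
  have hk1 : ∀ m, k₁ ≤ m → a (2 * k₁) = a (2 * m) := hk₁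
  have hk2 : ∀ m, k₂ ≤ m → a (2 * k₂ + 1) = a (2 * m + 1) := hk₂
  refine ⟨max k₁ k₂, fun n hn => ⟨?_, ?_⟩⟩
  · rw [← hk1 n (le_trans (le_max_left _ _) hn)]
    apply le_antisymm (le_iSup (fun i => a (2 * i)) k₁)
    apply iSup_le
    intro i
    rw [hk1 (max k₁ i) (le_max_left _ _)]
    exact hm (le_max_right k₁ i)
  · rw [← hk2 n (le_trans (le_max_right _ _) hn)]
    apply le_antisymm _ (iInf_le (fun i => a (2 * i + 1)) k₂)
    apply le_iInf
    intro i
    rw [hk2 (max k₂ i) (le_max_left _ _)]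
    exact ha (le_max_right k₂ i)

theorem seq_low_up [Finite α] (hf : Antitone f) (h0 : a 0 = ⊥) (hs : ∀ n, a (n + 1) = f (a n)) :
    (⨆ i : ℕ, a (2 * i)) ≤ (⨅ i : ℕ, a (2 * i + 1)) ∧
      f (⨆ i : ℕ, a (2 * i)) = (⨅ i : ℕ, a (2 * i + 1)) ∧
      f (⨅ i : ℕ, a (2 * i + 1)) = (⨆ i : ℕ, a (2 * i)) := by
  obtain ⟨k, hk⟩ := seq_stab hf h0 hs
  refine ⟨iSup_le fun i => le_iInf fun j => seq_even_le_odd hf h0 hs i j, ?_, ?_⟩
  · rw [← (hk k le_rfl).1, ← hs]
    exact (hk k le_rfl).2
  · rw [← (hk k le_rfl).2, ← hs]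
    have e1 : 2 * k + 1 + 1 = 2 * (k + 1) := by ring
    rw [e1]
    exact (hk (k + 1) (Nat.le_succ k)).1

end Seq

variable {G : Type u} [Group G] {p : ℕ}

/-- the Puig operator relative to a subgroup `S` -/
def PL (S X : Subgroup G) : Subgroup G :=
  sSup {A : Subgroup G | A ≤ S ∧ IsMulCommutative A ∧ X ≤ Subgroup.normalizer (A : Set G)}

theorem PL_le (S X : Subgroup G) : PL S X ≤ S := sSup_le fun _ h => h.1

theorem PL_antitone (S : Subgroup G) : Antitone (PL S) := by
  intro X Y h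
  exact sSup_le_sSup fun A hA => ⟨hA.1, hA.2.1, h.trans hA.2.2⟩

theorem le_PL {S X A : Subgroup G} (h1 : A ≤ S) (h2 : IsMulCommutative A)
    (h3 : X ≤ Subgroup.normalizer (A : Set G)) : A ≤ PL S X := le_sSup ⟨h1, h2, h3⟩

theorem puigStep_eq (X : Subgroup G) : puigStep X = PL ⊤ X := by
  unfold puigStep PL
  congr 1
  ext A
  simp

theorem puigStep_antitone : Antitone (puigStep (G := G)) := by
  intro X Y h
  rw [puigStep_eq, puigStep_eq]
  exact PL_antitone ⊤ h

theorem isMulCommutative_zpowers (x : G) : IsMulCommutative (Subgroup.zpowers x) := by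
  rw [H20.isMulCommutative_iff]
  intro a ha b hb
  obtain ⟨i, rfl⟩ := Subgroup.mem_zpowers_iff.1 ha
  obtain ⟨j, rfl⟩ := Subgroup.mem_zpowers_iff.1 hb
  rw [← zpow_add, ← zpow_add, add_comm]

theorem PL_bot (S : Subgroup G) : PL S ⊥ = S := by
  apply le_antisymm (PL_le _ _)
  intro x hx
  exact le_PL (A := Subgroup.zpowers x) (by rwa [Subgroup.zpowers_le]) (isMulCommutative_zpowers x)
    bot_le (Subgroup.mem_zpowers x)

theorem map_normalizer_le_iff {S : Subgroup G} {X A : Subgroup S} :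
    X.map S.subtype ≤ Subgroup.normalizer ((A.map S.subtype : Subgroup G) : Set G) ↔
      X ≤ Subgroup.normalizer (A : Set S) := by
  constructor
  · intro h x hx
    have h1 := h ⟨x, hx, rfl⟩
    rw [Subgroup.mem_normalizer_iff] at h1 ⊢
    intro y
    have h2 := h1 (y : G)
    constructor
    · intro hy
      obtain ⟨z, hz, hzy⟩ := h2.1 ⟨y, hy, rfl⟩
      have : z = x * y * x⁻¹ := Subtype.ext hzy
      rw [← this]; exact hz
    · intro hy
      obtain ⟨z, hz, hzy⟩ := h2.2 ⟨_, hy, rfl⟩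
      have : z = y := Subtype.ext hzy
      rw [← this]; exact hz
  · intro h
    exact (Subgroup.map_mono h).trans (Subgroup.le_normalizer_map _)

/-- the relative series -/
def pseq (S : Subgroup G) : ℕ → Subgroup G
  | 0 => ⊥
  | n + 1 => PL S (pseq S n)

theorem map_puigStep (S : Subgroup G) (X : Subgroup S) :
    (puigStep X).map S.subtype = PL S (X.map S.subtype) := by
  apply le_antisymm
  · rw [Subgroup.map_le_iff_le_comap]
    apply sSup_le
    rintro A ⟨hA1, hA2⟩
    rw [← Subgroup.map_le_iff_le_comap]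
    exact le_PL (Subgroup.map_subtype_le A) ((isMulCommutative_map_iff S.subtype_injective).2 hA1)
      (map_normalizer_le_iff.2 hA2)
  · apply sSup_le
    rintro A ⟨hA1, hA2, hA3⟩
    have h1 : (A.subgroupOf S).map S.subtype = A := Subgroup.map_subgroupOf_eq_of_le hA1
    rw [← h1]
    apply Subgroup.map_mono
    refine le_sSup ⟨?_, ?_⟩
    · rw [← h1] at hA2
      exact (isMulCommutative_map_iff S.subtype_injective).1 hA2
    · rw [← h1] at hA3
      exact map_normalizer_le_iff.1 hA3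

theorem map_puigSeq (S : Subgroup G) (n : ℕ) : (puigSeq S n).map S.subtype = pseq S n := by
  induction n with
  | zero => exact Subgroup.map_bot _
  | succ n ih =>
    show (puigStep (puigSeq S n)).map S.subtype = PL S (pseq S n)
    rw [map_puigStep, ih]

theorem pseq_le (S : Subgroup G) (n : ℕ) : pseq S n ≤ S := by
  cases n with
  | zero => exact bot_le
  | succ n => exact PL_le _ _

theorem pseq_one (S : Subgroup G) : pseq S 1 = S := PL_bot S

/-- `L_*(S)` and `L(S)` in the ambient group -/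
def PLow (S : Subgroup G) : Subgroup G := ⨆ n : ℕ, pseq S (2 * n)
def PUp (S : Subgroup G) : Subgroup G := ⨅ n : ℕ, pseq S (2 * n + 1)

theorem map_puigLower (S : Subgroup G) : (puigLower S).map S.subtype = PLow S := by
  unfold puigLower PLow
  rw [Subgroup.map_iSup]
  congr 1
  ext n
  rw [map_puigSeq]

theorem map_puigSubgroup (S : Subgroup G) : (puigSubgroup S).map S.subtype = PUp S := by
  unfold puigSubgroup PUp
  rw [Subgroup.map_iInf _ S.subtype_injective]
  congr 1
  ext n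
  rw [map_puigSeq]

theorem exists_stab [Finite G] (S : Subgroup G) :
    ∃ k : ℕ, ∀ n : ℕ, k ≤ n → pseq S (2 * n) = PLow S ∧ pseq S (2 * n + 1) = PUp S :=
  seq_stab (f := PL S) (a := pseq S) (PL_antitone S) rfl (fun _ => rfl)

theorem PLow_le_PUp [Finite G] (S : Subgroup G) : PLow S ≤ PUp S :=
  (seq_low_up (f := PL S) (a := pseq S) (PL_antitone S) rfl (fun _ => rfl)).1

theorem PL_PLow [Finite G] (S : Subgroup G) : PL S (PLow S) = PUp S :=
  (seq_low_up (f := PL S) (a := pseq S) (PL_antitone S) rfl (fun _ => rfl)).2.1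

theorem PL_PUp [Finite G] (S : Subgroup G) : PL S (PUp S) = PLow S :=
  (seq_low_up (f := PL S) (a := pseq S) (PL_antitone S) rfl (fun _ => rfl)).2.2

theorem PUp_le (S : Subgroup G) : PUp S ≤ S := (iInf_le _ 0).trans (pseq_le S _)

/-! ### self-centralizing abelian normal subgroups -/

theorem exists_selfcentralizing_normal [Finite G] [Fact p.Prime] (hG : IsPGroup p G) :
    ∃ A : Subgroup G, A.Normal ∧ IsMulCommutative A ∧ Subgroup.centralizer (A : Set G) = A := by
  obtain ⟨A, hA⟩ := (Set.toFinite {A : Subgroup G | A.Normal ∧ IsMulCommutative A}).exists_maximal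
    ⟨⊥, inferInstance, by
      rw [H20.isMulCommutative_iff]
      intro x hx y hy
      rw [Subgroup.mem_bot] at hx hy
      rw [hx, hy]⟩
  obtain ⟨hAn, hAc⟩ := hA.prop
  refine ⟨A, hAn, hAc, ?_⟩
  have hAc' := H20.isMulCommutative_iff.1 hAc
  have hle : A ≤ Subgroup.centralizer (A : Set G) := by
    intro x hx
    rw [Subgroup.mem_centralizer_iff]
    intro y hy
    exact hAc' y hy x hx
  by_contra hne
  have h2 : (Subgroup.centralizer (A : Set G)).map (QuotientGroup.mk' A) ≠ ⊥ := by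
    intro h
    rw [Subgroup.map_eq_bot_iff, QuotientGroup.ker_mk'] at h
    exact hne (le_antisymm h hle)
  haveI : ((Subgroup.centralizer (A : Set G)).map (QuotientGroup.mk' A)).Normal :=
    Subgroup.Normal.map inferInstance _ (QuotientGroup.mk'_surjective A)
  have h3 := inf_center_ne_bot_of_normal (hG.to_quotient A)
    ((Subgroup.centralizer (A : Set G)).map (QuotientGroup.mk' A)) h2
  obtain ⟨y, hy, hy1⟩ := (Subgroup.bot_or_exists_ne_one _).resolve_left h3
  obtain ⟨x, hx, rfl⟩ := (Subgroup.mem_inf.1 hy).1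
  have hyc := (Subgroup.mem_inf.1 hy).2
  have hxA : x ∉ A := fun h => hy1 ((QuotientGroup.eq_one_iff x).2 h)
  -- A⟨x⟩ is normal abelian
  have hcomm : ∀ g : G, ⁅g, x⁆ ∈ A := by
    intro g
    rw [Subgroup.mem_center_iff] at hyc
    have h4 := hyc (QuotientGroup.mk' A g)
    rw [← commutatorElement_eq_one_iff_mul_comm, ← map_commutatorElement] at h4
    exact (QuotientGroup.eq_one_iff _).1 h4
  have hB : (A ⊔ Subgroup.zpowers x).Normal := by
    have e0 : A ⊔ Subgroup.zpowers x = Subgroup.closure ((A : Set G) ∪ {x}) := by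
      rw [Subgroup.closure_union, Subgroup.closure_eq, Subgroup.zpowers_eq_closure]
    constructor
    intro b hb g
    rw [e0] at hb
    induction hb using Subgroup.closure_induction with
    | mem y hy =>
      rcases hy with hy | hy
      · exact (le_sup_left : A ≤ _) (hAn.conj_mem y hy g)
      · rw [Set.mem_singleton_iff] at hy
        subst hy
        have e1 : g * y * g⁻¹ = ⁅g, y⁆ * y := by rw [commutatorElement_def]; group
        rw [e1]
        exact mul_mem ((le_sup_left : A ≤ _) (hcomm g))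
          ((le_sup_right : _ ≤ A ⊔ _) (Subgroup.mem_zpowers y))
    | one => rw [mul_one, mul_inv_cancel]; exact one_mem _
    | mul a b _ _ ha hb =>
      have e1 : g * (a * b) * g⁻¹ = (g * a * g⁻¹) * (g * b * g⁻¹) := by group
      rw [e1]; exact mul_mem ha hb
    | inv a _ ha =>
      have e1 : g * a⁻¹ * g⁻¹ = (g * a * g⁻¹)⁻¹ := by group
      rw [e1]; exact inv_mem ha
  have hBc : IsMulCommutative ↥(A ⊔ Subgroup.zpowers x) := by
    have h2 : A ⊔ Subgroup.zpowers x = Subgroup.closure ((A : Set G) ∪ {x}) := by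
      rw [Subgroup.closure_union, Subgroup.closure_eq, Subgroup.zpowers_eq_closure]
    rw [h2]
    apply Subgroup.isMulCommutative_closure
    rintro a (ha | rfl) b (hb | rfl)
    · exact hAc' a ha b hb
    · exact Subgroup.mem_centralizer_iff.1 hx a ha
    · exact (Subgroup.mem_centralizer_iff.1 hx b hb).symm
    · rfl
  have h5 := hA.le_of_ge (y := A ⊔ Subgroup.zpowers x) ⟨hB, hBc⟩ le_sup_left
  exact hxA (h5 ((le_sup_right : _ ≤ A ⊔ _) (Subgroup.mem_zpowers x)))

theorem centralizer_puigStep_le [Finite G] [Fact p.Prime] (hG : IsPGroup p G) (X : Subgroup G) :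
    Subgroup.centralizer (puigStep X : Set G) ≤ puigStep X := by
  obtain ⟨A, hAn, hAc, hA⟩ := exists_selfcentralizing_normal hG
  have h1 : A ≤ puigStep X := le_sSup ⟨hAc, by rw [Subgroup.normalizer_eq_top]; exact le_top⟩
  exact ((Subgroup.centralizer_le h1).trans hA.le).trans h1

/-- in a `p`-subgroup `S`, `C_S(L_S(X)) ≤ L_S(X)` -/
theorem centralizer_PL_le [Finite G] [Fact p.Prime] {S : Subgroup G} (hS : IsPGroup p S)
    {X : Subgroup G} (hX : X ≤ S) :
    S ⊓ Subgroup.centralizer (PL S X : Set G) ≤ PL S X := by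
  intro x hx
  obtain ⟨hxS, hxC⟩ := Subgroup.mem_inf.1 hx
  have h1 := centralizer_puigStep_le hS (X.subgroupOf S)
  have h2 := map_puigStep S (X.subgroupOf S)
  rw [Subgroup.map_subgroupOf_eq_of_le hX] at h2
  rw [← h2] at hxC ⊢
  refine ⟨⟨x, hxS⟩, h1 ?_, rfl⟩
  show (⟨x, hxS⟩ : S) ∈ Subgroup.centralizer _
  rw [Subgroup.mem_centralizer_iff]
  intro y hy
  exact Subtype.ext (Subgroup.mem_centralizer_iff.1 hxC _ ⟨y, hy, rfl⟩)

end Cfsg.Agent.H2
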