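import Cfsg.Agent.H2.Puig
import Cfsg.Agent.S1465

/-!
# The Puig subgroup of a Sylow subgroup and of `O_p`
-/

set_option autoImplicit false
set_option linter.style.haveILetI false
set_option linter.unusedSectionVars false

universe u

namespace Cfsg.Agent.H2

open Cfsg
open scoped commutatorElement

variable {G : Type u} [Group G] {p : ℕ}

section Map

variable {H : Type*} [Group H] {g : H →* G}

theorem map_puigStep_inj (hg : Function.Injective g) (X : Subgroup H) :
    (puigStep X).map g = PL g.range (X.map g) := by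
  apply le_antisymm
  · rw [Subgroup.map_le_iff_le_comap]
    apply sSup_le
    rintro A ⟨hA1, hA2⟩
    rw [← Subgroup.map_le_iff_le_comap]
    exact le_PL (Subgroup.map_le_range g A) ((isMulCommutative_map_iff hg).2 hA1)
      ((Subgroup.map_mono hA2).trans (Subgroup.le_normalizer_map _))
  · apply sSup_le
    rintro A ⟨hA1, hA2, hA3⟩
    have h1 : (A.comap g).map g = A := Subgroup.map_comap_eq_self hA1
    rw [← h1]
    apply Subgroup.map_mono
    refine le_sSup ⟨?_, ?_⟩
    · rw [← h1] at hA2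
      exact (isMulCommutative_map_iff hg).1 hA2
    · intro x hx
      have h2 := hA3 ⟨x, hx, rfl⟩
      rw [Subgroup.mem_normalizer_iff] at h2 ⊢
      intro y
      rw [Subgroup.mem_comap, Subgroup.mem_comap, map_mul, map_mul, map_inv]
      exact h2 (g y)

theorem map_puigSeq_inj (hg : Function.Injective g) (n : ℕ) :
    (puigSeq H n).map g = pseq g.range n := by
  induction n with
  | zero => exact Subgroup.map_bot _
  | succ n ih =>
    show (puigStep (puigSeq H n)).map g = PL g.range (pseq g.range n)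
    rw [map_puigStep_inj hg, ih]

theorem map_puigSubgroup_inj (hg : Function.Injective g) : (puigSubgroup H).map g = PUp g.range := by
  unfold puigSubgroup PUp
  rw [Subgroup.map_iInf _ hg]
  congr 1
  ext n
  rw [map_puigSeq_inj hg]

end Map

theorem PUp_map_of_injOn {G' : Type*} [Group G'] {U : Subgroup G} {f : G →* G'}
    (hf : Function.Injective (f.comp U.subtype)) : PUp (U.map f) = (PUp U).map f := by
  have h1 := map_puigSubgroup_inj hf
  have h3 : (f.comp U.subtype).range = U.map f := by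
    rw [MonoidHom.range_comp, Subgroup.range_subtype]
  rw [h3, ← Subgroup.map_map, map_puigSubgroup] at h1
  exact h1.symm

theorem normalizer_le_normalizer_PUp (U : Subgroup G) :
    Subgroup.normalizer (U : Set G) ≤ Subgroup.normalizer ((PUp U : Subgroup G) : Set G) := by
  intro g hg
  rw [H18.mem_normalizer_iff_map] at hg ⊢
  have h1 := PUp_map_of_injOn (U := U) (f := (MulAut.conj g).toMonoidHom)
    ((MulAut.conj g).injective.comp U.subtype_injective)
  rw [hg] at h1
  exact h1.symm

/-- the centre of `L(S)` in the ambient group -/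
def ZU (S : Subgroup G) : Subgroup G := PUp S ⊓ Subgroup.centralizer (PUp S : Set G)

theorem ZU_le (S : Subgroup G) : ZU S ≤ S := inf_le_left.trans (PUp_le S)

theorem normalizer_le_normalizer_ZU {U : Subgroup G} :
    Subgroup.normalizer ((PUp U : Subgroup G) : Set G) ≤
      Subgroup.normalizer ((ZU U : Subgroup G) : Set G) := by
  intro g h1
  have h2 : g ∈ Subgroup.normalizer ((Subgroup.centralizer
      ((PUp U : Subgroup G) : Set G) : Subgroup G) : Set G) :=
    H18.le_normalizer_centralizer le_rfl h1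
  rw [Subgroup.mem_normalizer_iff] at h1 h2 ⊢
  intro h
  unfold ZU
  rw [Subgroup.mem_inf, Subgroup.mem_inf, h1, h2]

theorem ZU_normal {T : Subgroup G} [hT : T.Normal] : (ZU T).Normal := by
  rw [← Subgroup.normalizer_eq_top_iff, eq_top_iff]
  refine le_trans ?_ ((normalizer_le_normalizer_PUp T).trans normalizer_le_normalizer_ZU)
  rw [Subgroup.normalizer_eq_top]

theorem ZU_map_of_injOn {G' : Type*} [Group G'] {U : Subgroup G} {f : G →* G'}
    (hf : Function.Injective (f.comp U.subtype)) : ZU (U.map f) = (ZU U).map f := by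
  have hinj : ∀ x ∈ U, ∀ y ∈ U, f x = f y → x = y := by
    intro x hx y hy h
    have := @hf ⟨x, hx⟩ ⟨y, hy⟩ h
    exact congrArg Subtype.val this
  unfold ZU
  rw [PUp_map_of_injOn hf]
  have hJU : PUp U ≤ U := PUp_le U
  ext x
  constructor
  · rintro ⟨⟨y, hy, rfl⟩, hx⟩
    refine ⟨y, ⟨hy, ?_⟩, rfl⟩
    show y ∈ Subgroup.centralizer _
    rw [Subgroup.mem_centralizer_iff]
    intro z hz
    apply hinj _ (U.mul_mem (hJU hz) (hJU hy)) _ (U.mul_mem (hJU hy) (hJU hz))
    rw [map_mul, map_mul]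
    exact Subgroup.mem_centralizer_iff.1 hx _ ⟨z, hz, rfl⟩
  · rintro ⟨y, hy, rfl⟩
    have hy' := Subgroup.mem_inf.1 hy
    refine ⟨⟨y, hy'.1, rfl⟩, ?_⟩
    show f y ∈ Subgroup.centralizer _
    rw [Subgroup.mem_centralizer_iff]
    rintro _ ⟨z, hz, rfl⟩
    rw [← map_mul, ← map_mul, Subgroup.mem_centralizer_iff.1 hy'.2 z hz]

theorem map_center_puigSubgroup (S : Subgroup G) :
    ((Subgroup.center ↥(puigSubgroup S)).map (puigSubgroup S).subtype).map S.subtype = ZU S := by
  unfold ZU
  rw [← map_puigSubgroup]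
  ext x
  constructor
  · rintro ⟨_, ⟨y, hy, rfl⟩, rfl⟩
    refine Subgroup.mem_inf.2 ⟨⟨y, y.2, rfl⟩, ?_⟩
    rw [Subgroup.mem_centralizer_iff]
    rintro _ ⟨z, hz, rfl⟩
    have h1 := Subgroup.mem_center_iff.1 hy ⟨z, hz⟩
    exact congrArg (fun w : ↥(puigSubgroup S) => ((w : S) : G)) h1
  · intro hx
    obtain ⟨⟨y, hy, rfl⟩, hx2⟩ := Subgroup.mem_inf.1 hx
    refine ⟨y, ⟨⟨y, hy⟩, ?_, rfl⟩, rfl⟩
    rw [SetLike.mem_coe, Subgroup.mem_center_iff]
    intro z
    have h1 := Subgroup.mem_centralizer_iff.1 hx2 _ ⟨z, z.2, rfl⟩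
    exact Subtype.ext (Subtype.ext h1)

/-- if `L(S) ≤ H ≤ S` then `L(H) = L(S)` -/
theorem PUp_eq_of_le [Finite G] {S H : Subgroup G} (h1 : PUp S ≤ H) (h2 : H ≤ S) :
    PUp H = PUp S := by
  -- the operators agree on the two limit terms
  have hlow : PLow S ≤ PUp S := PLow_le_PUp S
  have e1 : PL H (PLow S) = PUp S := by
    apply le_antisymm
    · rw [← PL_PLow S]
      exact sSup_le_sSup fun A hA => ⟨hA.1.trans h2, hA.2.1, hA.2.2⟩
    · conv_lhs => rw [← PL_PLow S]
      apply sSup_le
      intro A hA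
      refine le_PL ?_ hA.2.1 hA.2.2
      refine le_trans ?_ h1
      rw [← PL_PLow S]
      exact le_sSup hA
  have e2 : PL H (PUp S) = PLow S := by
    apply le_antisymm
    · rw [← PL_PUp S]
      exact sSup_le_sSup fun A hA => ⟨hA.1.trans h2, hA.2.1, hA.2.2⟩
    · conv_lhs => rw [← PL_PUp S]
      apply sSup_le
      intro A hA
      refine le_PL ?_ hA.2.1 hA.2.2
      refine le_trans ?_ (hlow.trans h1)
      rw [← PL_PUp S]
      exact le_sSup hA
  have h3 : ∀ n : ℕ, pseq H (2 * n) ≤ PLow S ∧ PUp S ≤ pseq H (2 * n + 1) := by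
    intro n
    induction n with
    | zero =>
      refine ⟨bot_le, ?_⟩
      rw [mul_zero, zero_add, pseq_one]
      exact h1
    | succ n ih =>
      have h4 : pseq H (2 * (n + 1)) ≤ PLow S := by
        have : pseq H (2 * (n + 1)) = PL H (pseq H (2 * n + 1)) := rfl
        rw [this, ← e2]
        exact PL_antitone H ih.2
      refine ⟨h4, ?_⟩
      have : pseq H (2 * (n + 1) + 1) = PL H (pseq H (2 * (n + 1))) := rfl
      rw [this, ← e1]
      exact PL_antitone H h4
  have h5 : ∀ n : ℕ, pseq S (2 * n) ≤ pseq H (2 * n) ∧ pseq H (2 * n + 1) ≤ pseq S (2 * n + 1) := by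
    intro n
    induction n with
    | zero =>
      refine ⟨bot_le, ?_⟩
      rw [mul_zero, zero_add, pseq_one, pseq_one]
      exact h2
    | succ n ih =>
      have h4 : pseq S (2 * (n + 1)) ≤ pseq H (2 * (n + 1)) := by
        have e3 : pseq H (2 * (n + 1)) = PL H (pseq H (2 * n + 1)) := rfl
        have e4 : pseq S (2 * (n + 1)) = PL S (pseq S (2 * n + 1)) := rfl
        have e5 : pseq S (2 * (n + 1)) ≤ H :=
          (le_iSup (fun i => pseq S (2 * i)) (n + 1)).trans (hlow.trans h1)
        rw [e3, e4]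
        apply sSup_le
        intro A hA
        refine le_PL (le_trans ?_ e5) hA.2.1 (ih.2.trans hA.2.2)
        rw [e4]
        exact le_sSup hA
      refine ⟨h4, ?_⟩
      have e3 : pseq H (2 * (n + 1) + 1) = PL H (pseq H (2 * (n + 1))) := rfl
      have e4 : pseq S (2 * (n + 1) + 1) = PL S (pseq S (2 * (n + 1))) := rfl
      rw [e3, e4]
      exact sSup_le_sSup fun A hA => ⟨hA.1.trans h2, hA.2.1, h4.trans hA.2.2⟩
  apply le_antisymm
  · exact le_iInf fun n => (iInf_le _ n).trans (h5 n).2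
  · exact le_iInf fun n => (h3 n).2

/-- normality of the terms for a normal subgroup -/
theorem PL_normal {T X : Subgroup G} (hT : T.Normal) (hX : X.Normal) : (PL T X).Normal := by
  constructor
  intro x hx g
  have h1 : PL T X ≤ (PL T X).comap (MulAut.conj g).toMonoidHom := by
    conv_lhs => unfold PL
    apply sSup_le
    rintro A ⟨hA1, hA2, hA3⟩
    rw [← Subgroup.map_le_iff_le_comap]
    refine le_PL ?_ ((isMulCommutative_map_iff (MulAut.conj g).injective).2 hA2) ?_
    · rintro _ ⟨a, ha, rfl⟩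
      exact hT.conj_mem a (hA1 ha) g
    · have h2 : X.map (MulAut.conj g).toMonoidHom = X := by
        apply H18.mem_normalizer_iff_map.1
        rw [Subgroup.normalizer_eq_top]; exact Subgroup.mem_top g
      rw [← h2]
      exact (Subgroup.map_mono hA3).trans (Subgroup.le_normalizer_map _)
  exact h1 hx

theorem pseq_normal {T : Subgroup G} (hT : T.Normal) (n : ℕ) : (pseq T n).Normal := by
  induction n with
  | zero => exact (inferInstance : (⊥ : Subgroup G).Normal)
  | succ n ih => exact PL_normal hT ih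

theorem pseq_sylow_pCore [Finite G] [Group.IsSolvable G] (hodd : Odd (Nat.card G)) [Fact p.Prime]
    (hp : p ≠ 2) (hO : pPrimeCore p G = ⊥) (S : Sylow p G) (n : ℕ) :
    pseq (S : Subgroup G) (2 * n) ≤ pseq (pCore p G) (2 * n) ∧
      pseq (pCore p G) (2 * n + 1) ≤ pseq (S : Subgroup G) (2 * n + 1) := by
  have hTS : pCore p G ≤ (S : Subgroup G) := H18.pCore_le_sylow S
  have hTp : IsPGroup p (pCore p G) := H18.isPGroup_pCore p G
  induction n with
  | zero =>
    refine ⟨bot_le, ?_⟩
    rw [mul_zero, zero_add, pseq_one, pseq_one]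
    exact hTS
  | succ n ih =>
    have h4 : pseq (S : Subgroup G) (2 * (n + 1)) ≤ pseq (pCore p G) (2 * (n + 1)) := by
      have e3 : pseq (pCore p G) (2 * (n + 1)) = PL (pCore p G) (pseq (pCore p G) (2 * n + 1)) := rfl
      have e4 : pseq (S : Subgroup G) (2 * (n + 1)) =
        PL (S : Subgroup G) (pseq (S : Subgroup G) (2 * n + 1)) := rfl
      rw [e3, e4]
      apply sSup_le
      rintro A ⟨hA1, hA2, hA3⟩
      haveI : (pseq (pCore p G) (2 * n + 1)).Normal := pseq_normal inferInstance _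
      have h5 := (S1465.result hodd p hp (pseq (pCore p G) (2 * n + 1))
        (hTp.to_le (pseq_le _ _)) {A} (by
          intro B hB
          rw [Set.mem_singleton_iff] at hB
          subst hB
          exact ⟨hA2, S.2.to_le hA1, ih.2.trans hA3⟩)).2 hO
          (centralizer_PL_le hTp (X := pseq (pCore p G) (2 * n)) (pseq_le _ _))
      rw [sSup_singleton] at h5
      exact le_PL h5 hA2 (ih.2.trans hA3)
    refine ⟨h4, ?_⟩
    have e3 : pseq (pCore p G) (2 * (n + 1) + 1) = PL (pCore p G) (pseq (pCore p G) (2 * (n + 1))) :=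
      rfl
    have e4 : pseq (S : Subgroup G) (2 * (n + 1) + 1) =
      PL (S : Subgroup G) (pseq (S : Subgroup G) (2 * (n + 1))) := rfl
    rw [e3, e4]
    exact sSup_le_sSup fun A hA => ⟨hA.1.trans hTS, hA.2.1, h4.trans hA.2.2⟩

theorem puig_sylow_pCore [Finite G] [Group.IsSolvable G] (hodd : Odd (Nat.card G)) [Fact p.Prime]
    (hp : p ≠ 2) (hO : pPrimeCore p G = ⊥) (S : Sylow p G) :
    PLow (S : Subgroup G) ≤ PLow (pCore p G) ∧ PUp (pCore p G) ≤ PUp (S : Subgroup G) := by
  have h := pseq_sylow_pCore hodd hp hO S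
  exact ⟨iSup_mono fun n => (h n).1, le_iInf fun n => (iInf_le _ n).trans (h n).2⟩

theorem ZU_sylow_normal [Finite G] [Group.IsSolvable G] (hodd : Odd (Nat.card G)) [Fact p.Prime]
    (hp : p ≠ 2) (hO : pPrimeCore p G = ⊥) (S : Sylow p G) : (ZU (S : Subgroup G)).Normal := by
  obtain ⟨hlow, hup⟩ := puig_sylow_pCore hodd hp hO S
  have hTS : pCore p G ≤ (S : Subgroup G) := H18.pCore_le_sylow S
  have hTp : IsPGroup p (pCore p G) := H18.isPGroup_pCore p G
  obtain ⟨T, hT⟩ : ∃ T, T = pCore p G := ⟨_, rfl⟩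
  rw [← hT] at hlow hup hTS hTp
  haveI hTn : T.Normal := by rw [hT]; infer_instance
  obtain ⟨Y, hY⟩ : ∃ Y, Y = ZU T := ⟨_, rfl⟩
  haveI hYn : Y.Normal := by rw [hY]; exact ZU_normal
  have hYT : Y ≤ T := by rw [hY]; exact ZU_le T
  have hYp : IsPGroup p Y := hTp.to_le hYT
  -- C_S(L_*(S)) ≤ L_*(S)
  have hCS : (S : Subgroup G) ⊓ Subgroup.centralizer (PLow (S : Subgroup G) : Set G) ≤
      PLow (S : Subgroup G) := by
    have := centralizer_PL_le S.2 (X := PUp (S : Subgroup G)) (PUp_le _)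
    rwa [PL_PUp] at this
  have hZY : ZU (S : Subgroup G) ≤ Y := by
    intro x hx
    have hxS : x ∈ (S : Subgroup G) := ZU_le _ hx
    have hxC : x ∈ Subgroup.centralizer (PUp (S : Subgroup G) : Set G) := hx.2
    have h1 : x ∈ PLow (S : Subgroup G) :=
      hCS (Subgroup.mem_inf.2 ⟨hxS, Subgroup.centralizer_le (PLow_le_PUp _) hxC⟩)
    rw [hY]
    exact Subgroup.mem_inf.2 ⟨PLow_le_PUp T (hlow h1), Subgroup.centralizer_le hup hxC⟩
  have hYlow : Y ≤ PLow (S : Subgroup G) := by
    refine le_trans (le_inf (hYT.trans hTS) ?_) hCS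
    rw [hY]
    exact inf_le_right.trans (Subgroup.centralizer_le (hlow.trans (PLow_le_PUp T)))
  obtain ⟨C, hC⟩ : ∃ C, C = Subgroup.centralizer (Y : Set G) := ⟨_, rfl⟩
  haveI hCn : C.Normal := by rw [hC]; infer_instance
  obtain ⟨L, hL⟩ : ∃ L, L = (pCore p (G ⧸ C)).comap (QuotientGroup.mk' C) := ⟨_, rfl⟩
  haveI hLn : L.Normal := by rw [hL]; infer_instance
  have hCL : C ≤ L := by
    intro c hc
    rw [hL, Subgroup.mem_comap]
    have : QuotientGroup.mk' C c = 1 := (QuotientGroup.eq_one_iff c).2 hc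
    rw [this]; exact one_mem _
  have hUL : PUp (S : Subgroup G) ≤ L := by
    rw [← PL_PLow]
    apply sSup_le
    rintro A ⟨hA1, hA2, hA3⟩
    have h1 := (S1465.result hodd p hp Y hYp {A} (by
      intro B hB
      rw [Set.mem_singleton_iff] at hB
      subst hB
      exact ⟨hA2, S.2.to_le hA1, hYlow.trans hA3⟩)).1
    rw [sSup_singleton] at h1
    rw [hL]
    subst hC
    exact Subgroup.map_le_iff_le_comap.1 h1
  have h2 : PUp ((S : Subgroup G) ⊓ L) = PUp (S : Subgroup G) :=
    PUp_eq_of_le (le_inf (PUp_le _) hUL) inf_le_left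
  constructor
  intro x hx g
  obtain ⟨n, hn, y, hy, rfl⟩ := exists_frattini' S L g
  have hy' : (QuotientGroup.mk y : G ⧸ C) ∈ pCore p (G ⧸ C) := by
    rw [hL] at hy; exact hy
  obtain ⟨s, hs, c, hc, rfl⟩ := exists_mul_of_mem_pCore_quotient S hy'
  have hsL : s ∈ L := by
    have := mul_mem hy (inv_mem (hCL hc))
    rwa [mul_inv_cancel_right] at this
  have hsT : s ∈ (S : Subgroup G) ⊓ L := Subgroup.mem_inf.2 ⟨hs, hsL⟩
  have hcx : c * x * c⁻¹ = x := by
    rw [hC] at hc
    have := comm_of_mem_centralizer hc (hZY hx)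
    rw [← this, mul_inv_cancel_right]
  have e1 : n * (s * c) * x * (n * (s * c))⁻¹ = (n * s) * (c * x * c⁻¹) * (n * s)⁻¹ := by group
  rw [e1, hcx]
  have h3 : n * s ∈ Subgroup.normalizer ((PUp ((S : Subgroup G) ⊓ L) : Subgroup G) : Set G) :=
    normalizer_le_normalizer_PUp _ (mul_mem hn (Subgroup.le_normalizer hsT))
  rw [h2] at h3
  exact conj_mem_of_norm (normalizer_le_normalizer_ZU h3) hx

end Cfsg.Agent.H2
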