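import Mathlib
import Cfsg.Agent.H18.SL23

/-! A group `X ⟨g⟩` with `X ≅ Q₈` normal and `g` of odd order acting non-trivially maps onto `SL(2,3)`. -/

set_option autoImplicit false

open Subgroup

namespace Cfsg.Agent.H2.Q8SL

abbrev Q : Type := QuaternionGroup 2

def FF (j u : Q) : Q → Q
  | .a k => j ^ k.val
  | .xa k => u * j ^ k.val

theorem eq_FF (f : Q →* Q) (x : Q) : f x = FF (f (.a 1)) (f (.xa 0)) x := by
  have ha : ∀ k : ZMod 4, (QuaternionGroup.a k : Q) = (QuaternionGroup.a 1) ^ k.val := by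
    decide
  have hxa : ∀ k : ZMod 4, (QuaternionGroup.xa k : Q) = QuaternionGroup.xa 0 * (QuaternionGroup.a 1) ^ k.val := by
    decide
  cases x with
  | a k =>
    show f (.a k) = (f (.a 1)) ^ k.val
    rw [← map_pow]
    exact congrArg f (ha k)
  | xa k =>
    show f (.xa k) = f (.xa 0) * (f (.a 1)) ^ k.val
    rw [← map_pow, ← map_mul]
    exact congrArg f (hxa k)

theorem key12 : ∀ j u : Q, (∀ x y : Q, FF j u (x * y) = FF j u x * FF j u y) →
    (∀ x : Q, FF j u x = 1 → x = 1) → ∀ x : Q, (FF j u)^[12] x = x := by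
  decide +kernel

theorem key3 : ∀ j u : Q, (∀ x y : Q, FF j u (x * y) = FF j u x * FF j u y) →
    (∀ x : Q, (FF j u)^[3] x = x) → (∃ x : Q, FF j u x ≠ x) →
    ∃ i : Q, i * i ≠ 1 ∧ i ^ 4 = 1 ∧ FF j u i * FF j u i = i * i ∧
      FF j u i * i * (FF j u i)⁻¹ = i⁻¹ ∧ FF j u (FF j u i) = i * FF j u i := by
  decide +kernel

theorem iter_eq (f : Q →* Q) (n : ℕ) (x : Q) :
    (FF (f (.a 1)) (f (.xa 0)))^[n] x = (f : Q → Q)^[n] x := by
  have h : FF (f (.a 1)) (f (.xa 0)) = (f : Q → Q) := by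
    funext y; exact (eq_FF f y).symm
  rw [h]

theorem pow12 (f : MulAut Q) : f ^ 12 = 1 := by
  ext x
  have h := key12 (f.toMonoidHom (.a 1)) (f.toMonoidHom (.xa 0))
    (fun x y => by rw [← eq_FF, ← eq_FF, ← eq_FF, map_mul])
    (fun x hx => by
      rw [← eq_FF] at hx
      have : f x = 1 := hx
      simpa using this) x
  rw [iter_eq] at h
  have h2 : (f ^ 12) x = (f.toMonoidHom : Q → Q)^[12] x := by
    rfl
  rw [h2, h]; rfl

theorem pow3 (f : MulAut Q) (hf : Odd (orderOf f)) : f ^ 3 = 1 := by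
  have h1 : orderOf f ∣ 12 := orderOf_dvd_of_pow_eq_one (pow12 f)
  have h2 : Nat.Coprime (orderOf f) 4 := by
    have : Nat.Coprime (orderOf f) 2 := Nat.coprime_two_right.2 hf
    have h3 := Nat.Coprime.pow_right 2 this
    simpa using h3
  have h3 : orderOf f ∣ 3 := by
    apply Nat.Coprime.dvd_of_dvd_mul_left h2
    simpa using h1
  exact orderOf_dvd_iff_pow_eq_one.1 h3

theorem exists_i (f : MulAut Q) (h3 : f ^ 3 = 1) (h1 : f ≠ 1) :
    ∃ i : Q, i * i ≠ 1 ∧ i ^ 4 = 1 ∧ f i * f i = i * i ∧ f i * i * (f i)⁻¹ = i⁻¹ ∧ f (f i) = i * f i := by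
  have h := key3 (f.toMonoidHom (.a 1)) (f.toMonoidHom (.xa 0))
    (fun x y => by rw [← eq_FF, ← eq_FF, ← eq_FF, map_mul])
    (fun x => by
      rw [iter_eq]
      have : (f ^ 3) x = x := by rw [h3]; rfl
      exact this)
    (by
      by_contra hc
      push Not at hc
      apply h1
      ext x
      have := hc x
      rw [← eq_FF] at this
      exact this)
  obtain ⟨i, h1, h2, h3, h4, h5⟩ := h
  simp only [← eq_FF] at h3 h4 h5
  exact ⟨i, h1, h2, h3, h4, h5⟩

theorem exists_quotient {Y : Type*} [Group Y] [Finite Y] (X : Subgroup Y) [X.Normal]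
    (e : X ≃* QuaternionGroup 2) (g : Y) (hg : Odd (orderOf g)) (hgC : g ∉ centralizer (X : Set Y))
    (htop : X ⊔ zpowers g = ⊤) :
    ∃ (K : Subgroup Y) (_ : K.Normal), Nonempty ((Y ⧸ K) ≃* Matrix.SpecialLinearGroup (Fin 2) (ZMod 3)) := by
  classical
  set α : MulAut X := MulAut.conjNormal g with hα
  set f : MulAut Q := (MulAut.congr e) α with hf
  have hfa : ∀ x : X, f (e x) = e (α x) := by
    intro x
    rw [hf]; simp [MulAut.congr]
  have hα1 : ∀ x : X, ((α x : X) : Y) = g * x * g⁻¹ := fun x => MulAut.conjNormal_apply g x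
  have hfo : Odd (orderOf f) := by
    have h1 : orderOf f ∣ orderOf g := by
      rw [hf]
      have : orderOf ((MulAut.congr e) α) = orderOf α := orderOf_injective (MulAut.congr e).toMonoidHom (MulAut.congr e).injective α
      rw [this, hα]
      exact orderOf_map_dvd MulAut.conjNormal g
    obtain ⟨c, hc⟩ := h1
    rw [hc] at hg
    exact (Nat.odd_mul.1 hg).1
  have hf3 := pow3 f hfo
  have hf1 : f ≠ 1 := by
    intro h
    apply hgC
    rw [mem_centralizer_iff]
    intro x hx
    have h2 : f (e ⟨x, hx⟩) = e ⟨x, hx⟩ := by rw [h]; rfl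
    rw [hfa] at h2
    have h3 := congrArg Subtype.val (e.injective h2)
    rw [hα1] at h3
    have h4 : g * x * g⁻¹ = x := h3
    calc x * g = (g * x * g⁻¹) * g := by rw [h4]
      _ = g * x := by group
  obtain ⟨i, hi1, hi4, hjj, hconj, hrj⟩ := exists_i f hf3 hf1
  obtain ⟨i', rfl⟩ := e.surjective i
  rw [hfa] at hjj hconj hrj
  rw [hfa] at hrj
  -- transfer to Y
  set x : Y := ((i' : X) : Y) with hx
  set y : Y := ((α i' : X) : Y) with hy
  have E : ∀ u v : X, e u = e v → (u : Y) = v := fun u v h => congrArg Subtype.val (e.injective h)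
  have k1 : x * x ≠ 1 := by
    intro h
    apply hi1
    have : i' * i' = 1 := Subtype.ext h
    rw [← map_mul, this, map_one]
  have k2 : x ^ 4 = 1 := by
    have h := E (i' ^ 4) 1 (by rw [map_pow, map_one, hi4])
    simpa using h
  have k3 : y * y = x * x := by
    have h := E (α i' * α i') (i' * i') (by rw [map_mul, map_mul, hjj])
    simpa using h
  have k4 : y * x * y⁻¹ = x⁻¹ := by
    have h := E (α i' * i' * (α i')⁻¹) (i'⁻¹) (by rw [map_mul, map_mul, map_inv, map_inv, hconj])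
    simpa using h
  have k5 : g * x * g⁻¹ = y := (hα1 i').symm
  have k6 : g * y * g⁻¹ = x * y := by
    have h := E (α (α i')) (i' * α i') (by rw [map_mul, hrj])
    rw [hα1] at h
    simpa using h
  -- the central subgroup K
  have hcomm3 : ∀ z : X, g ^ 3 * (z : Y) = z * g ^ 3 := by
    intro z
    have h1 : f ^ 3 = (MulAut.congr e) (α ^ 3) := by rw [map_pow]
    have h2 : α ^ 3 = 1 := by
      apply (MulAut.congr e).injective
      rw [← h1, hf3, map_one]
    have h3 : (α ^ 3) z = z := by rw [h2]; rfl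
    have h4 : α ^ 3 = MulAut.conjNormal (g ^ 3) := by rw [hα, map_pow]
    rw [h4] at h3
    have h5 := congrArg Subtype.val h3
    rw [MulAut.conjNormal_apply] at h5
    calc g ^ 3 * (z : Y) = (g ^ 3 * z * (g ^ 3)⁻¹) * g ^ 3 := by group
      _ = z * g ^ 3 := by rw [h5]
  have hcen : g ^ 3 ∈ center Y := by
    rw [mem_center_iff]
    intro w
    have hw : w ∈ X ⊔ zpowers g := by rw [htop]; exact mem_top w
    obtain ⟨a, ha, b, hb, rfl⟩ := (mem_sup_of_normal_left).1 hw
    obtain ⟨k, rfl⟩ := mem_zpowers_iff.1 hb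
    have h1 := hcomm3 ⟨a, ha⟩
    have h1' : g ^ 3 * a = a * g ^ 3 := h1
    have h2 : g ^ 3 * g ^ k = g ^ k * g ^ 3 := by
      rw [← zpow_natCast, ← zpow_add, ← zpow_add, add_comm]
    rw [mul_assoc, ← h2, ← mul_assoc, ← h1', mul_assoc]
  set K : Subgroup Y := zpowers (g ^ 3) with hK
  have hKc : K ≤ center Y := by rw [hK, zpowers_le]; exact hcen
  haveI hKn : K.Normal := by
    constructor
    intro k hk w
    have := mem_center_iff.1 (hKc hk) w
    rw [this, mul_assoc, mul_inv_cancel, mul_one]; exact hk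
  refine ⟨K, hKn, ?_⟩
  -- X ∩ K = 1
  have hX8 : Nat.card X = 8 := by
    rw [Nat.card_congr e.toEquiv, Nat.card_eq_fintype_card]; rfl
  have hXK : X ⊓ K = ⊥ := by
    apply inf_eq_bot_of_coprime
    rw [hX8, hK, Nat.card_zpowers]
    have h1 : Odd (orderOf (g ^ 3)) := by
      have := orderOf_pow_dvd (x := g) 3
      obtain ⟨c, hc⟩ := this
      rw [hc] at hg
      exact (Nat.odd_mul.1 hg).1
    have h2 : Nat.Coprime 2 (orderOf (g ^ 3)) := Nat.coprime_two_left.2 h1
    have h3 := Nat.Coprime.pow_left 3 h2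
    simpa using h3
  set π := QuotientGroup.mk' K with hπ
  have hinj : ∀ z ∈ X, π z = 1 → z = 1 := by
    intro z hz h
    have h1 : z ∈ K := by rw [← QuotientGroup.eq_one_iff]; exact h
    have h2 : z ∈ X ⊓ K := ⟨hz, h1⟩
    rw [hXK] at h2
    exact h2
  have hBT : Cfsg.Agent.H18.BT (π x) (π y) (π g) := by
    refine ⟨?_, ?_, ?_, ?_, ?_, ?_⟩
    · rw [← map_pow, k2, map_one]
    · rw [← map_mul, k3, map_mul]
    · rw [← map_mul, ← map_inv, ← map_mul, k4, map_inv]
    · rw [← map_mul, ← map_inv, ← map_mul, k5]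
    · rw [← map_mul, ← map_inv, ← map_mul, k6, map_mul]
    · rw [← map_pow]
      exact (QuotientGroup.eq_one_iff _).2 (mem_zpowers _)
  have hxX : x ∈ X := i'.2
  have hyX : y ∈ X := (α i').2
  have hne : π x * π x ≠ 1 := by
    intro h
    rw [← map_mul] at h
    exact k1 (hinj _ (X.mul_mem hxX hxX) h)
  have hA := hBT.cardA hne
  have hle : zpowers (π x) ⊔ zpowers (π y) ≤ X.map π := by
    refine sup_le ?_ ?_
    · rw [zpowers_le]; exact mem_map_of_mem _ hxX
    · rw [zpowers_le]; exact mem_map_of_mem _ hyX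
  have hcardXm : Nat.card (X.map π) ≤ 8 := by
    rw [← hX8]
    exact Nat.card_le_card_of_surjective (π.subgroupMap X) (π.subgroupMap_surjective X)
  have hXeq : zpowers (π x) ⊔ zpowers (π y) = X.map π := by
    apply eq_of_le_of_card_ge hle
    rw [hA]; exact hcardXm
  have hsub : Cfsg.Agent.H18.BT.sub (π x) (π y) (π g) = ⊤ := by
    unfold Cfsg.Agent.H18.BT.sub
    rw [hXeq, ← MonoidHom.map_zpowers, ← Subgroup.map_sup, htop, ← MonoidHom.range_eq_map,
      MonoidHom.range_eq_top]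
    exact QuotientGroup.mk'_surjective K
  have hc24 : Nat.card (Y ⧸ K) = 24 := by
    have := hBT.card_sub hne
    rw [hsub, card_top] at this
    exact this
  exact hBT.equiv_SL23 hne hc24

end Cfsg.Agent.H2.Q8SL
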