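import Cfsg.Agent.H2.QuadStab
import Cfsg.Agent.H1.Coprime
import Cfsg.Agent.H2.CopQuot

/-!
# Failure of `p`-stability, faithful case
-/

set_option autoImplicit false
set_option linter.style.haveILetI false
set_option linter.unusedSectionVars false

namespace Cfsg.Agent.H2

open Cfsg
open scoped commutatorElement

variable {G : Type*} [Group G] {p : ℕ}

theorem hN_of_faithful [Finite G] [hp : Fact p.Prime] {V H : Subgroup G}
    (hf : H ⊓ Subgroup.centralizer (V : Set G) = ⊥) {a : G} (haH : a ∈ H)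
    (hna : a ∉ (pCore p H).map H.subtype) :
    ∀ N : Subgroup G, N ≤ H → H ≤ Subgroup.normalizer (N : Set G) → a ∈ N →
      ∃ n ∈ N, ∀ m : ℕ, n ^ p ^ m ∉ Subgroup.centralizer (V : Set G) := by
  intro N hNH hHN haN
  by_contra hcon
  push Not at hcon
  apply hna
  have h1 : IsPGroup p N := by
    rw [H18.isPGroup_iff_mem]
    intro n hn
    obtain ⟨m, hm⟩ := hcon n hn
    refine ⟨m, ?_⟩
    have h2 : n ^ p ^ m ∈ H ⊓ Subgroup.centralizer (V : Set G) :=
      Subgroup.mem_inf.2 ⟨pow_mem (hNH hn) _, hm⟩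
    rwa [hf, Subgroup.mem_bot] at h2
  have h2 : N ≤ pCoreOf p H := H18.le_pCoreOf hNH hHN h1
  exact h2 haN

theorem faithful_not_stable [Finite G] [hp : Fact p.Prime] (hp2 : p ≠ 2) {V H : Subgroup G}
    (hV : IsElementaryAbelian p V) (hHV : H ≤ Subgroup.normalizer (V : Set G))
    (hf : H ⊓ Subgroup.centralizer (V : Set G) = ⊥) {a : G} (haH : a ∈ H)
    (ha : ⁅⁅V, Subgroup.zpowers a⁆, Subgroup.zpowers a⁆ = ⊥)
    (hna : a ∉ (pCore p H).map H.subtype) :
    (∃ (K L : Subgroup G) (hL : (L.subgroupOf K).Normal), K ≤ H ∧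
      Nonempty ((K ⧸ L.subgroupOf K) ≃* Matrix.SpecialLinearGroup (Fin 2) (ZMod p))) ∧
    (∀ T : Sylow 2 H, ¬ IsMulCommutative T) ∧ (IsPSolvable p H → p = 3) :=
  exists_of_not_stable hp2 hV hHV haH ha (hN_of_faithful hf haH hna)

theorem pow_p_of_quad [Finite G] [hp : Fact p.Prime] {V H : Subgroup G}
    (hV : IsElementaryAbelian p V) (hHV : H ≤ Subgroup.normalizer (V : Set G))
    (hf : H ⊓ Subgroup.centralizer (V : Set G) = ⊥) {a : G} (haH : a ∈ H)
    (ha : ⁅⁅V, Subgroup.zpowers a⁆, Subgroup.zpowers a⁆ = ⊥) : a ^ p = 1 := by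
  have h1 : a ^ p ∈ H ⊓ Subgroup.centralizer (V : Set G) := by
    refine Subgroup.mem_inf.2 ⟨pow_mem haH p, ?_⟩
    rw [Subgroup.mem_centralizer_iff]
    intro v hv
    have h2 : ⁅v, a⁆ ∈ ⁅V, Subgroup.zpowers a⁆ :=
      Subgroup.commutator_mem_commutator hv (Subgroup.mem_zpowers a)
    have h3 := Subgroup.commutator_mem_commutator h2 (Subgroup.mem_zpowers a)
    rw [ha, Subgroup.mem_bot, commutatorElement_eq_one_iff_mul_comm] at h3
    have h4 := comm_pow_right' (n := p) h3.symm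
    have h5 : ⁅v, a⁆ ^ p = 1 := hV.2 _ (comm_mem_left (hHV haH) hv)
    rw [h5, commutatorElement_eq_one_iff_mul_comm] at h4
    exact h4
  rwa [hf, Subgroup.mem_bot] at h1

/-- `Q⟨a⟩` is `p`-solvable -/
theorem isPSolvable_sup_zpowers [Finite G] [hp : Fact p.Prime] {Q : Subgroup G}
    (hQ : (Nat.card Q).Coprime p) {a : G} (haQ : a ∈ Subgroup.normalizer (Q : Set G))
    (hap : a ^ p = 1) : IsPSolvable p ↥(Q ⊔ Subgroup.zpowers a) := by
  obtain ⟨H', hH'⟩ : ∃ H', H' = Q ⊔ Subgroup.zpowers a := ⟨_, rfl⟩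
  rw [← hH']
  have hQH : Q ≤ H' := by rw [hH']; exact le_sup_left
  have hHQ : H' ≤ Subgroup.normalizer (Q : Set G) := by
    rw [hH']
    exact sup_le Subgroup.le_normalizer ((Subgroup.zpowers_le).2 haQ)
  haveI : (Q.subgroupOf H').Normal := (H18.normal_subgroupOf_iff hQH).2 hHQ
  apply H23.isPSolvable_of_quotient (Q.subgroupOf H')
  · right
    have h1 : Nat.card (Q.subgroupOf H') = Nat.card Q :=
      Nat.card_congr (Subgroup.subgroupOfEquivOfLe hQH).toEquiv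
    rw [h1]; exact hQ
  · apply H23.isPSolvable_of_isPGroup
    intro x
    obtain ⟨y, rfl⟩ := QuotientGroup.mk'_surjective _ x
    have hy : (y : G) ∈ Q ⊔ Subgroup.zpowers a := hH' ▸ y.2
    obtain ⟨n, hn, w, hw, hnw⟩ :=
      (H1.mem_sup_iff_of_le_normalizer ((Subgroup.zpowers_le).2 haQ)).1 hy
    obtain ⟨k, rfl⟩ := Subgroup.mem_zpowers_iff.1 hw
    refine ⟨1, ?_⟩
    have haH : a ∈ H' := by rw [hH']; exact (le_sup_right : _ ≤ Q ⊔ _) (Subgroup.mem_zpowers a)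
    have h1 : y = ⟨n, hQH hn⟩ * (⟨a, haH⟩ : H') ^ k := Subtype.ext hnw.symm
    have h2 : QuotientGroup.mk' (Q.subgroupOf H') (⟨n, hQH hn⟩ : H') = 1 :=
      (QuotientGroup.eq_one_iff _).2 hn
    have h3 : (⟨a, haH⟩ : H') ^ p = 1 := Subtype.ext hap
    rw [h1, map_mul, h2, one_mul, map_zpow, pow_one, ← zpow_natCast, ← zpow_mul, mul_comm, zpow_mul,
      zpow_natCast, ← map_pow, h3, map_one, one_zpow]

theorem section_three_of_solvable [Finite G] [hp : Fact p.Prime] (hp2 : p ≠ 2) {V H : Subgroup G}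
    (hV : IsElementaryAbelian p V) (hHV : H ≤ Subgroup.normalizer (V : Set G))
    (hf : H ⊓ Subgroup.centralizer (V : Set G) = ⊥) {a : G} (haH : a ∈ H)
    (ha : ⁅⁅V, Subgroup.zpowers a⁆, Subgroup.zpowers a⁆ = ⊥)
    (hna : a ∉ (pCore p H).map H.subtype) (hs : IsPSolvable p H) :
    p = 3 ∧ ∃ (K L : Subgroup G) (hL : (L.subgroupOf K).Normal), K ≤ H ∧
      Nonempty ((K ⧸ L.subgroupOf K) ≃* Matrix.SpecialLinearGroup (Fin 2) (ZMod 3)) := by
  obtain ⟨h1, -, h3⟩ := faithful_not_stable hp2 hV hHV hf haH ha hna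
  have h4 := h3 hs
  subst h4
  exact ⟨rfl, h1⟩

/-- the situation of a quadratic element acting nontrivially on a `p'`-subgroup -/
theorem section_three_of_coprime [Finite G] [hp : Fact p.Prime] (hp2 : p ≠ 2) {V H : Subgroup G}
    (hV : IsElementaryAbelian p V) (hHV : H ≤ Subgroup.normalizer (V : Set G))
    (hf : H ⊓ Subgroup.centralizer (V : Set G) = ⊥) {a : G} (haH : a ∈ H)
    (ha : ⁅⁅V, Subgroup.zpowers a⁆, Subgroup.zpowers a⁆ = ⊥)
    {Q : Subgroup G} (hQH : Q ≤ H) (haQ : a ∈ Subgroup.normalizer (Q : Set G))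
    (hQ : (Nat.card Q).Coprime p) (hQa : ⁅Q, Subgroup.zpowers a⁆ ≠ ⊥) :
    p = 3 ∧ ∃ (K L : Subgroup G) (hL : (L.subgroupOf K).Normal), K ≤ Q ⊔ Subgroup.zpowers a ∧
      Nonempty ((K ⧸ L.subgroupOf K) ≃* Matrix.SpecialLinearGroup (Fin 2) (ZMod 3)) := by
  have hap := pow_p_of_quad hV hHV hf haH ha
  have hle : Q ⊔ Subgroup.zpowers a ≤ H := sup_le hQH ((Subgroup.zpowers_le).2 haH)
  have haH' : a ∈ Q ⊔ Subgroup.zpowers a := (le_sup_right : _ ≤ Q ⊔ _) (Subgroup.mem_zpowers a)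
  have hf' : (Q ⊔ Subgroup.zpowers a) ⊓ Subgroup.centralizer (V : Set G) = ⊥ := by
    rw [eq_bot_iff, ← hf]
    exact inf_le_inf_right _ hle
  refine section_three_of_solvable hp2 hV (hle.trans hHV) hf' haH' ha ?_
    (isPSolvable_sup_zpowers hQ haQ hap)
  intro hmem
  apply hQa
  obtain ⟨N, hN⟩ : ∃ N, N = (pCore p ↥(Q ⊔ Subgroup.zpowers a)).map
    (Q ⊔ Subgroup.zpowers a).subtype := ⟨_, rfl⟩
  rw [← hN] at hmem
  have hNn : Q ⊔ Subgroup.zpowers a ≤ Subgroup.normalizer (N : Set G) := by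
    rw [hN]; exact H18.le_normalizer_pCoreOf _
  have hNp : IsPGroup p N := by rw [hN]; exact H18.isPGroup_pCoreOf _
  rw [eq_bot_iff, ← inf_eq_bot_of_isPGroup_of_coprime hNp hQ]
  apply le_inf
  · have h1 : ⁅Q, Subgroup.zpowers a⁆ ≤ ⁅Q, N⁆ :=
      Subgroup.commutator_mono le_rfl ((Subgroup.zpowers_le).2 hmem)
    exact h1.trans (Subgroup.le_normalizer_iff_commutator_le_right.1 (le_sup_left.trans hNn))
  · exact Subgroup.le_normalizer_iff_commutator_le_left.1 ((Subgroup.zpowers_le).2 haQ)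

end Cfsg.Agent.H2
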