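import Cfsg.Agent.H2.QdRk1
import Cfsg.Agent.H5.SL2Inv
import Cfsg.Agent.H5.PSLSimple
import Cfsg.Agent.H2.Six1
import Cfsg.Agent.H2.Six2

set_option autoImplicit false
set_option linter.all false

/-! H2/SL25 (helper2): SL(2,5) is perfect, normal subgroups, five Sylow 2-subgroups. -/

namespace Cfsg.Agent.H2.Six
open scoped commutatorElement

abbrev SL25 := Matrix.SpecialLinearGroup (Fin 2) (ZMod 5)

theorem two5 : (2 : ZMod 5) ≠ 0 := by decide

theorem sl25_perfect : commutator SL25 = ⊤ := by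
  haveI : Fact (Nat.Prime 5) := ⟨by norm_num⟩
  apply Cfsg.Agent.H2.sl_comm_top (p := 5) (by norm_num)
  intro g k
  rw [commutator_def]
  exact Subgroup.commutator_mem_commutator (Subgroup.mem_top g) (Subgroup.mem_top k)

theorem sl25_normal (N : Subgroup SL25) [hN : N.Normal] : N = ⊤ ∨ ∀ g ∈ N, g = 1 ∨ g = -1 := by
  haveI : Fact (Nat.Prime 5) := ⟨by norm_num⟩
  have h2 := two5
  have hs : IsSimpleGroup (Matrix.ProjectiveSpecialLinearGroup (Fin 2) (ZMod 5)) :=
    Cfsg.Agent.H5.PSL2_isSimple (by simp)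
  let π : SL25 →* Matrix.ProjectiveSpecialLinearGroup (Fin 2) (ZMod 5) := QuotientGroup.mk' _
  have hπ : Function.Surjective π := QuotientGroup.mk'_surjective _
  have hker : π.ker = Subgroup.center SL25 := QuotientGroup.ker_mk' _
  haveI : (N.map π).Normal := Subgroup.Normal.map hN π hπ
  rcases hs.eq_bot_or_eq_top_of_normal (N.map π) inferInstance with h | h
  · right
    intro g hg
    have h1 : N ≤ π.ker := (Subgroup.map_eq_bot_iff N).1 h
    have h3 : g ∈ Subgroup.center SL25 := by rw [← hker]; exact h1 hg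
    rw [Matrix.SpecialLinearGroup.mem_center_iff] at h3
    obtain ⟨r, hr, hr2⟩ := h3
    apply Cfsg.Agent.H5.sl2_sq_one h2
    apply Subtype.ext
    rw [Matrix.SpecialLinearGroup.coe_mul, Matrix.SpecialLinearGroup.coe_one, ← hr2, ← map_mul,
      ← pow_two]
    have : r ^ 2 = 1 := by simpa using hr
    rw [this, map_one]
  · left
    rw [eq_top_iff, ← sl25_perfect, commutator_def, Subgroup.commutator_le]
    intro a _ b _
    have key : ∀ a : SL25, ∃ n ∈ N, ∃ c ∈ Subgroup.center SL25, a = n * c := by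
      intro a
      have h1 : π a ∈ N.map π := h ▸ Subgroup.mem_top _
      obtain ⟨n, hn, hn2⟩ := h1
      refine ⟨n, hn, n⁻¹ * a, ?_, by group⟩
      rw [← hker, MonoidHom.mem_ker, map_mul, map_inv, hn2, inv_mul_cancel]
    obtain ⟨n, hn, c, hc, rfl⟩ := key a
    obtain ⟨m, hm, d, hd, rfl⟩ := key b
    have e : ⁅n * c, m * d⁆ = ⁅n, m⁆ := by
      rw [commutatorElement_def, commutatorElement_def]
      have hc' := fun g => (Subgroup.mem_center_iff.1 hc g)
      have hd' := fun g => (Subgroup.mem_center_iff.1 hd g)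
      calc n * c * (m * d) * (n * c)⁻¹ * (m * d)⁻¹
          = n * (c * (m * d)) * c⁻¹ * n⁻¹ * d⁻¹ * m⁻¹ := by group
        _ = n * m * (d * n⁻¹) * d⁻¹ * m⁻¹ := by rw [← hc' (m * d)]; group
        _ = n * m * n⁻¹ * m⁻¹ := by rw [← hd' n⁻¹]; group
    rw [e, commutatorElement_def]
    exact N.mul_mem (N.mul_mem (N.mul_mem hn hm) (N.inv_mem hn)) (N.inv_mem hm)


abbrev qi : SL25 := ⟨!![2, 0; 0, 3], by decide⟩
abbrev qj : SL25 := ⟨!![0, 1; 4, 0], by decide⟩
abbrev qw : SL25 := ⟨!![1, 1; 2, 3], by decide⟩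
abbrev qg : SL25 := ⟨!![1, 1; 0, 1], by decide⟩

def Qf : Finset SL25 := {1, -1, qi, -qi, qj, -qj, qi * qj, -(qi * qj)}

theorem Qf_mul : ∀ a ∈ Qf, ∀ b ∈ Qf, a * b ∈ Qf := by decide +kernel
theorem Qf_inv : ∀ a ∈ Qf, a⁻¹ ∈ Qf := by decide +kernel
theorem Qf_conj : ∀ a ∈ Qf, qw * a * qw⁻¹ ∈ Qf := by decide +kernel
theorem Qf_conj' : ∀ a ∈ Qf, qw⁻¹ * a * qw ∈ Qf := by decide +kernel
theorem Qf_not : qg * qj * qg⁻¹ ∉ Qf := by decide +kernel
theorem Qf_card : Qf.card = 8 := by decide +kernel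
theorem qw_three : qw ^ 3 = 1 := by decide +kernel
theorem qw_ne : qw ≠ 1 := by decide +kernel

def Qs : Subgroup SL25 where
  carrier := Qf
  one_mem' := by simp [Qf]
  mul_mem' := fun {a b} ha hb => Qf_mul a ha b hb
  inv_mem' := fun {a} ha => Qf_inv a ha

theorem Qs_card : Nat.card Qs = 8 := by
  calc Nat.card Qs = (Qf : Set SL25).ncard := rfl
    _ = Qf.card := Set.ncard_coe_finset _
    _ = 8 := Qf_card

theorem sl25_card : Nat.card SL25 = 120 := by
  rw [Nat.card_eq_fintype_card]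
  decide +kernel

theorem card_sylow : Nat.card (Sylow 2 SL25) = 5 := by
  haveI : Fact (Nat.Prime 2) := ⟨Nat.prime_two⟩
  have hidx : Qs.index = 15 := by
    have := Qs.card_mul_index
    rw [Qs_card, sl25_card] at this
    omega
  let Q : Sylow 2 SL25 := (IsPGroup.of_card (n := 3) (by rw [Qs_card]; norm_num)).toSylow (by rw [hidx]; norm_num)
  have hQ : (Q : Subgroup SL25) = Qs := rfl
  have h1 : Nat.card (Sylow 2 SL25) = (Subgroup.normalizer (Qs : Set SL25)).index := Q.card_eq_index_normalizer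
  have h3 : 3 ∣ Nat.card (Subgroup.normalizer (Qs : Set SL25)) := by
    have hw : qw ∈ Subgroup.normalizer (Qs : Set SL25) := by
      rw [Subgroup.mem_normalizer_iff]
      intro x
      constructor
      · exact fun h => Qf_conj x h
      · intro h
        have := Qf_conj' _ h
        have e : qw⁻¹ * (qw * x * qw⁻¹) * qw = x := by group
        rwa [e] at this
    have ho : orderOf qw = 3 := orderOf_eq_prime qw_three qw_ne
    rw [← ho, ← Subgroup.orderOf_mk _ hw]
    exact orderOf_dvd_natCard _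
  have h8 : 8 ∣ Nat.card (Subgroup.normalizer (Qs : Set SL25)) := by
    have := Subgroup.card_dvd_of_le (Subgroup.le_normalizer (H := Qs))
    rwa [Qs_card] at this
  have h24 : 24 ∣ Nat.card (Subgroup.normalizer (Qs : Set SL25)) := by omega
  have h5 := (Subgroup.normalizer (Qs : Set SL25)).card_mul_index
  rw [sl25_card] at h5
  obtain ⟨t, ht⟩ := h24
  rw [ht] at h5
  have h6 : (Subgroup.normalizer (Qs : Set SL25)).index ∣ 5 := by
    refine ⟨t, ?_⟩
    nlinarith
  rcases (Nat.dvd_prime (by norm_num)).1 h6 with h | h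
  · exfalso
    have hN := Subgroup.normalizer_eq_top_iff.1 (Subgroup.index_eq_one.1 h)
    have hj : qj ∈ Qs := by
      change qj ∈ (Qf : Set SL25)
      simp [Qf]
    exact Qf_not (hN.conj_mem qj hj qg)
  · rw [h1, h]

end Cfsg.Agent.H2.Six
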