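import Cfsg.Agent.H2.SL25
import Cfsg.Agent.H21.ZFmain

set_option autoImplicit false
set_option linter.all false

/-! H2/Six3 (helper2): existence part of the six types (S4291), nonsolvable case. -/

universe u v

namespace Cfsg.Agent.H2.Six

open Subgroup
open scoped commutatorElement

theorem card_sylow_congr {A B : Type*} [Group A] [Group B] [Finite A] [Finite B] {p : ℕ} [Fact p.Prime] (e : A ≃* B) :
    Nat.card (Sylow p A) = Nat.card (Sylow p B) := by
  refine Nat.card_congr ⟨fun P => Sylow.mapSurjective (f := e.toMonoidHom) e.surjective P, fun Q => Sylow.mapSurjective (f := e.symm.toMonoidHom) e.symm.surjective Q, ?_, ?_⟩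
  · intro P
    apply Sylow.ext
    change ((P : Subgroup A).map e.toMonoidHom).map e.symm.toMonoidHom = P
    rw [Subgroup.map_map]
    have : e.symm.toMonoidHom.comp e.toMonoidHom = MonoidHom.id A := by ext x; simp
    rw [this, Subgroup.map_id]
  · intro P
    apply Sylow.ext
    change ((P : Subgroup B).map e.symm.toMonoidHom).map e.toMonoidHom = P
    rw [Subgroup.map_map]
    have : e.toMonoidHom.comp e.symm.toMonoidHom = MonoidHom.id B := by ext x; simp
    rw [this, Subgroup.map_id]

theorem relIndex_sup_aux {G : Type*} [Group G] [Finite G] (H A : Subgroup G) [A.Normal] :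
    H.relIndex A = H.relIndex (H ⊔ A) := by
  have h1 := H1.card_sup_mul_card_inf_of_le_normalizer (H := A) (K := H)
    (by rw [Subgroup.normalizer_eq_top]; exact le_top)
  have h2 := H1.card_mul_relIndex_aux (le_sup_left : H ≤ H ⊔ A)
  have h3 := H1.card_mul_relIndex_aux (inf_le_right : H ⊓ A ≤ A)
  rw [Subgroup.inf_relIndex_right] at h3
  have e1 : (A ⊔ H : Subgroup G) = H ⊔ A := sup_comm _ _
  have e2 : (A ⊓ H : Subgroup G) = H ⊓ A := inf_comm _ _
  rw [e1, e2, ← h2, ← h3] at h1
  have hp : 0 < Nat.card H := Nat.card_pos
  have hq : 0 < Nat.card (H ⊓ A : Subgroup G) := Nat.card_pos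
  have : (Nat.card H * Nat.card (H ⊓ A : Subgroup G)) * H.relIndex (H ⊔ A) =
      (Nat.card H * Nat.card (H ⊓ A : Subgroup G)) * H.relIndex A := by
    linarith [h1, mul_comm (Nat.card (H ⊓ A : Subgroup G) * H.relIndex A) (Nat.card H)]
  exact (Nat.eq_of_mul_eq_mul_left (Nat.mul_pos hp hq) this).symm

/-- a normal subgroup `L ≅ SL(2,5)` and its centralizer -/
theorem exists_five {G : Type*} [Group G] [Finite G] (L : Subgroup G) [hLN : L.Normal] (e : L ≃* SL25) :
    ∃ F : G →* Equiv.Perm (Fin 5), F.ker = centralizer (L : Set G) := by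
  classical
  haveI : Fact (Nat.Prime 2) := ⟨Nat.prime_two⟩
  let P : Sylow 2 L := default
  have hcs : Nat.card (Sylow 2 L) = 5 := by
    rw [← card_sylow]
    exact card_sylow_congr e
  set Q : Subgroup G := (P : Subgroup L).map L.subtype with hQ
  have hQL : Q ≤ L := Subgroup.map_subtype_le _
  have hQP : Q.subgroupOf L = P := Subgroup.comap_map_eq_self_of_injective L.subtype_injective _
  set M : Subgroup G := normalizer (Q : Set G) with hM
  have hML : M ⊔ L = ⊤ := Sylow.normalizer_sup_eq_top P
  have hMsub : M.subgroupOf L = normalizer ((P : Subgroup L) : Set L) := by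
    rw [hM, Subgroup.subgroupOf_normalizer_eq hQL, hQP]
  have hidxL : M.relIndex L = 5 := by
    change (M.subgroupOf L).index = 5
    rw [hMsub, ← hcs]
    exact P.card_eq_index_normalizer.symm
  have hMi : M.index = 5 := by
    rw [← hidxL]
    have h1 : M.relIndex L = M.relIndex (M ⊔ L) := relIndex_sup_aux M L
    rw [hML, Subgroup.relIndex_top_right] at h1
    exact h1.symm
  have hperf : ⁅L, L⁆ = L := by
    have h1 : commutator L = ⊤ := by
      have h2 : (commutator SL25).map e.symm.toMonoidHom = commutator L := by
        rw [_root_.commutator_def, _root_.commutator_def, Subgroup.map_commutator]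
        have : (⊤ : Subgroup SL25).map e.symm.toMonoidHom = ⊤ := by
          rw [← MonoidHom.range_eq_map]; exact MonoidHom.range_eq_top.2 e.symm.surjective
        rw [this]
      rw [← h2, sl25_perfect, ← MonoidHom.range_eq_map]; exact MonoidHom.range_eq_top.2 e.symm.surjective
    have h3 : (commutator L).map L.subtype = ⁅L, L⁆ := by
      rw [_root_.commutator_def, Subgroup.map_commutator]
      congr 1 <;> simp [← MonoidHom.range_eq_map]
    rw [← h3, h1, ← MonoidHom.range_eq_map, Subgroup.range_subtype]
  have hcore : M.normalCore = centralizer (L : Set G) := by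
    apply le_antisymm
    · set K : Subgroup G := M.normalCore with hK
      have hKM : K ≤ M := Subgroup.normalCore_le M
      haveI hKN : K.Normal := by rw [hK]; infer_instance
      haveI : (K.subgroupOf L).Normal := inferInstance
      haveI : ((K.subgroupOf L).map e.toMonoidHom).Normal := Subgroup.Normal.map inferInstance _ e.surjective
      have hcent : L ⊓ K ≤ centralizer (L : Set G) := by
        rcases sl25_normal ((K.subgroupOf L).map e.toMonoidHom) with h | h
        · exfalso
          have h1 : K.subgroupOf L = ⊤ := by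
            rw [eq_top_iff]
            intro x _
            have h2 : e x ∈ (K.subgroupOf L).map e.toMonoidHom := by rw [h]; exact Subgroup.mem_top _
            obtain ⟨y, hy, hyx⟩ := h2
            rwa [← e.injective hyx]
          have h2 : L ≤ M := (Subgroup.subgroupOf_eq_top.1 h1).trans hKM
          have h3 := Subgroup.relIndex_eq_one.2 h2
          omega
        · intro x hx
          obtain ⟨hxL, hxK⟩ := Subgroup.mem_inf.1 hx
          have h2 : e ⟨x, hxL⟩ ∈ (K.subgroupOf L).map e.toMonoidHom := ⟨⟨x, hxL⟩, hxK, rfl⟩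
          have h3 : ∀ y : SL25, y * e ⟨x, hxL⟩ = e ⟨x, hxL⟩ * y := by
            intro y
            rcases h _ h2 with h4 | h4
            · rw [h4, one_mul, mul_one]
            · rw [h4, neg_mul, mul_neg, one_mul, mul_one]
          rw [Subgroup.mem_centralizer_iff]
          intro l hl
          have h5 := h3 (e ⟨l, hl⟩)
          rw [← map_mul, ← map_mul] at h5
          exact congrArg Subtype.val (e.injective h5)
      have hLK : ⁅L, K⁆ ≤ L ⊓ K := Subgroup.commutator_le_inf L K
      have h1 : ⁅⁅L, K⁆, L⁆ = ⊥ := Subgroup.commutator_eq_bot_iff_le_centralizer.2 (hLK.trans hcent)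
      have h2 : ⁅⁅K, L⁆, L⁆ = ⊥ := by rw [Subgroup.commutator_comm K L]; exact h1
      have h3 : ⁅⁅L, L⁆, K⁆ = ⊥ := Subgroup.commutator_commutator_eq_bot_of_rotate h1 h2
      rw [hperf, Subgroup.commutator_comm] at h3
      exact Subgroup.commutator_eq_bot_iff_le_centralizer.1 h3
    · refine (Subgroup.normal_le_normalCore).2 ?_
      refine le_trans ?_ (Subgroup.centralizer_le_normalizer _)
      exact Subgroup.centralizer_le hQL
  obtain ⟨F, hF⟩ := exists_act M 5 hMi
  exact ⟨F, hF.trans hcore⟩

end Cfsg.Agent.H2.Six
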