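import Cfsg.Agent.H2.Six3
import Cfsg.Agent.H21.ZFmain

set_option autoImplicit false
set_option linter.all false

/-! H2/Six4 (helper2): the six types (S4291): existence and uniqueness. -/

universe u v

namespace Cfsg.Agent.H2.Six

open Subgroup H21.ZF
open scoped commutatorElement

variable {G : Type u} [Group G] [Finite G] {A : Type v} [Ring A] [Algebra ℚ A] [Nontrivial A] {ρ : G →* A}

theorem isZGroup_of_pgroup (N : Subgroup G) (h : ∀ (p : ℕ) [Fact p.Prime] (Q : Subgroup G), Q ≤ N → IsPGroup p Q → IsCyclic Q) :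
    IsZGroup N := by
  rw [isZGroup_iff]
  intro p hp P
  haveI : Fact p.Prime := ⟨hp⟩
  haveI := h p ((P : Subgroup N).map N.subtype) (Subgroup.map_subtype_le _) (P.2.map _)
  exact isCyclic_of_surjective _ ((P : Subgroup N).equivMapOfInjective _ N.subtype_injective).symm.surjective

theorem quat_gen (n : ℕ) [NeZero n] : closure ({QuaternionGroup.a 1, QuaternionGroup.xa 0} : Set (QuaternionGroup n)) = ⊤ := by
  rw [eq_top_iff]
  have ha : (QuaternionGroup.a 1 : QuaternionGroup n) ∈ closure ({QuaternionGroup.a 1, QuaternionGroup.xa 0} : Set (QuaternionGroup n)) :=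
    Subgroup.subset_closure (by simp)
  have hx : (QuaternionGroup.xa 0 : QuaternionGroup n) ∈ closure ({QuaternionGroup.a 1, QuaternionGroup.xa 0} : Set (QuaternionGroup n)) :=
    Subgroup.subset_closure (by simp)
  have hai : ∀ i : ZMod (2 * n), (QuaternionGroup.a i : QuaternionGroup n) ∈ closure ({QuaternionGroup.a 1, QuaternionGroup.xa 0} : Set (QuaternionGroup n)) := by
    intro i
    have : (QuaternionGroup.a i : QuaternionGroup n) = QuaternionGroup.a 1 ^ i.val := by
      rw [QuaternionGroup.a_one_pow, ZMod.natCast_zmod_val]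
    rw [this]
    exact Subgroup.pow_mem _ ha _
  rintro (i | i) -
  · exact hai i
  · have : (QuaternionGroup.xa i : QuaternionGroup n) = QuaternionGroup.xa 0 * QuaternionGroup.a i := by
      rw [QuaternionGroup.xa_mul_a, zero_add]
    rw [this]
    exact Subgroup.mul_mem _ hx (hai i)

theorem exists_gen (D : ZD ρ) (P : Sylow 2 G) : ∃ u v : G, closure {u, v} = (P : Subgroup G) := by
  rcases D.pgroup (P : Subgroup G) P.2 with h | ⟨-, n, hn, ⟨e⟩⟩
  · obtain ⟨g, hg⟩ := h.exists_generator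
    refine ⟨g, 1, ?_⟩
    apply le_antisymm
    · rw [Subgroup.closure_le]
      rintro x (rfl | rfl)
      · exact g.2
      · exact Subgroup.one_mem _
    · intro x hx
      obtain ⟨k, hk⟩ := Subgroup.mem_zpowers_iff.1 (hg ⟨x, hx⟩)
      have : (g : G) ^ k = x := by have := congrArg Subtype.val hk; simpa using this
      rw [← this]
      exact Subgroup.zpow_mem _ (Subgroup.subset_closure (by simp)) k
  · haveI : NeZero (2 ^ n) := ⟨by positivity⟩
    let f : QuaternionGroup (2 ^ n) →* G := (P : Subgroup G).subtype.comp e.symm.toMonoidHom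
    refine ⟨f (QuaternionGroup.a 1), f (QuaternionGroup.xa 0), ?_⟩
    have h1 : ({f (QuaternionGroup.a 1), f (QuaternionGroup.xa 0)} : Set G) = f '' {QuaternionGroup.a 1, QuaternionGroup.xa 0} := by
      rw [Set.image_pair]
    rw [h1, ← MonoidHom.map_closure, quat_gen, ← MonoidHom.range_eq_map]
    ext x
    constructor
    · rintro ⟨y, rfl⟩
      exact (e.symm y).2
    · intro hx
      exact ⟨e ⟨x, hx⟩, by simp [f]⟩

/-- the six alternatives as in the statement -/
def Alt6 (N : Subgroup G) : Prop :=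
      (N = ⊤ ∨
        (∃ f : G →* DihedralGroup 2, Function.Surjective f ∧ f.ker = N) ∨
        (∃ f : G →* alternatingGroup (Fin 4), Function.Surjective f ∧ f.ker = N) ∨
        (∃ f : G →* Equiv.Perm (Fin 4), Function.Surjective f ∧ f.ker = N) ∨
        (∃ f : G →* alternatingGroup (Fin 5), Function.Surjective f ∧ f.ker = N) ∨
        (∃ f : G →* Equiv.Perm (Fin 5), Function.Surjective f ∧ f.ker = N))

theorem Alt6.alt {N : Subgroup G} (h : Alt6 N) : Alt N := by
  rcases h with h | h | ⟨f, h1, h2⟩ | ⟨f, h1, h2⟩ | ⟨f, h1, h2⟩ | ⟨f, h1, h2⟩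
  · exact Or.inl h
  · exact Or.inr (Or.inl h)
  · exact Or.inr (Or.inr ⟨A4, inferInstance, inferInstance, big_a4, f, h1, h2⟩)
  · exact Or.inr (Or.inr ⟨S4, inferInstance, inferInstance, big_s4, f, h1, h2⟩)
  · exact Or.inr (Or.inr ⟨A5, inferInstance, inferInstance, big_a5, f, h1, h2⟩)
  · exact Or.inr (Or.inr ⟨S5, inferInstance, inferInstance, big_s5, f, h1, h2⟩)

theorem exists_nonsolvable (D : ZD ρ) {x y : G} (I : Ico D x y) : ∃ N : Subgroup G, N.Normal ∧ IsZGroup N ∧ Alt6 N := by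
  classical
  obtain ⟨e⟩ := D.ico_iso I.hx I.hy I.h10
  haveI := I.normal
  set L : Subgroup G := closure {x, y} with hL
  set C : Subgroup G := centralizer (L : Set G) with hC
  obtain ⟨F, hF⟩ := exists_five L e
  have hcL : Nat.card L = 120 := I.card_L
  have hinf : L ⊓ C = zpowers ((x * y) ^ 5) := I.inf_eq
  have hrel : C.relIndex L = 60 := by
    have h1 := H1.card_mul_relIndex_aux (K := C ⊓ L) (H := L) inf_le_right
    rw [Subgroup.inf_relIndex_right, inf_comm, hinf, Nat.card_zpowers, I.z_order, hcL] at h1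
    omega
  have hidx : C.index = 60 * (L ⊔ C).index := by
    rw [← hrel, ← Subgroup.relIndex_mul_index (le_sup_right : C ≤ L ⊔ C)]
    congr 1
    rw [sup_comm]
    exact (relIndex_sup_aux C L).symm
  have h2 : (L ⊔ C).index ≤ 2 := I.index_sup
  have h0 : (L ⊔ C).index ≠ 0 := Subgroup.index_ne_zero_of_finite
  refine ⟨C, by rw [hC]; infer_instance, ?_, ?_⟩
  · apply isZGroup_of_pgroup
    intro p hp Q hQ hQp
    rcases D.pgroup Q hQp with h | ⟨-, n, hn, ⟨e0⟩⟩
    · exact h
    · exfalso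
      haveI : NeZero (2 ^ n) := ⟨by positivity⟩
      have h1 : orderOf ((e0.symm (QuaternionGroup.xa 0) : Q) : G) = 4 := by
        rw [Subgroup.orderOf_coe, MulEquiv.orderOf_eq, QuaternionGroup.orderOf_xa]
      exact I.no_four (hQ (e0.symm (QuaternionGroup.xa 0)).2) h1
  · have h120 : (5 : ℕ).factorial = 120 := rfl
    rcases surj_or_alt (by norm_num) F (by rw [hF, ← hC, h120, hidx]; omega) with h | ⟨F', hF', hk⟩
    · exact Or.inr (Or.inr (Or.inr (Or.inr (Or.inr ⟨F, h, hF⟩))))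
    · exact Or.inr (Or.inr (Or.inr (Or.inr (Or.inl ⟨F', hF', hk.trans hF⟩))))

theorem exists_solvable (D : ZD ρ) (hs : Group.IsSolvable G) : ∃ N : Subgroup G, N.Normal ∧ IsZGroup N ∧ Alt6 N := by
  classical
  haveI : Fact (Nat.Prime 2) := ⟨Nat.prime_two⟩
  let P : Sylow 2 G := default
  have hodd : ∀ (p : ℕ) [Fact p.Prime] (Q : Subgroup G), p ≠ 2 → IsPGroup p Q → IsCyclic Q := by
    intro p hp Q hp2 hQ
    rcases D.pgroup Q hQ with h | ⟨h, -⟩
    · exact h
    · exact absurd h hp2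
  rcases D.pgroup (P : Subgroup G) P.2 with h | ⟨-, n, hn, ⟨e⟩⟩
  · refine ⟨⊤, inferInstance, ?_, Or.inl rfl⟩
    apply isZGroup_of_pgroup
    intro p hp Q _ hQ
    by_cases hp2 : p = 2
    · subst hp2
      obtain ⟨P', hP'⟩ := hQ.exists_le_sylow
      have e1 : P' ≃* P := P'.equiv P
      haveI : IsCyclic P' := isCyclic_of_surjective _ e1.symm.surjective
      exact isCyclic_of_injective (Subgroup.inclusion hP') (Subgroup.inclusion_injective hP')
    · exact hodd p Q hp2 hQ
  · haveI hOn : (Cfsg.pPrimeCore 2 G).Normal := H1.pPrimeCore_normal 2 G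
    set O := Cfsg.pPrimeCore 2 G with hO
    have hπ := QuotientGroup.mk'_surjective O
    let T' : Sylow 2 (G ⧸ O) := P.mapSurjective hπ
    have hOc : ∀ t ∈ O, ∀ k : ℕ, t ^ 2 ^ k = 1 → t = 1 := by
      intro t ht k hk
      have h1 : orderOf (⟨t, ht⟩ : O) ∣ Nat.card O := orderOf_dvd_natCard _
      rw [Subgroup.orderOf_mk] at h1
      have h2 := H1.pPrimeCore_coprime 2 G
      have h3 : orderOf t ∣ 2 ^ k := orderOf_dvd_of_pow_eq_one hk
      have h4 : (Nat.card O).Coprime (2 ^ k) := Nat.Coprime.pow_right k h2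
      have h5 := Nat.dvd_gcd h1 h3
      rw [h4] at h5
      exact orderOf_eq_one_iff.1 (Nat.dvd_one.1 h5)
    have hinj : Function.Injective ((QuotientGroup.mk' O).subgroupMap (P : Subgroup G)) := by
      rw [injective_iff_map_eq_one]
      rintro ⟨t, ht⟩ h
      have h1 : QuotientGroup.mk' O t = 1 := congrArg Subtype.val h
      have h2 : t ∈ O := (QuotientGroup.eq_one_iff t).mp h1
      obtain ⟨k, hk⟩ := P.isPGroup' ⟨t, ht⟩
      exact Subtype.ext (hOc t h2 k (congrArg Subtype.val hk))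
    let e1 : (P : Subgroup G) ≃* (T' : Subgroup (G ⧸ O)) :=
      MulEquiv.ofBijective _ ⟨hinj, MonoidHom.subgroupMap_surjective _ _⟩
    obtain ⟨N, hNc, hN2, hNf⟩ := solv_case (X := G ⧸ O) inferInstance (H1.pPrimeCore_quotient_eq_bot 2) T' n hn (e1.symm.trans e)
    have hNn : N.Normal := by
      rcases hNf with ⟨f, -, h⟩ | ⟨f, -, h⟩ | ⟨f, -, h⟩ <;> rw [← h] <;> infer_instance
    refine ⟨N.comap (QuotientGroup.mk' O), hNn.comap _, ?_, ?_⟩
    · apply isZGroup_of_pgroup
      intro p hp Q hQ hQp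
      by_cases hp2 : p = 2
      · subst hp2
        let g : Q →* N := ((QuotientGroup.mk' O).comp Q.subtype).codRestrict N (fun x => hQ x.2)
        refine isCyclic_of_injective g ?_
        rw [injective_iff_map_eq_one]
        rintro ⟨t, ht⟩ h
        have h1 : QuotientGroup.mk' O t = 1 := congrArg Subtype.val h
        have h2 : t ∈ O := (QuotientGroup.eq_one_iff t).mp h1
        obtain ⟨k, hk⟩ := hQp ⟨t, ht⟩
        exact Subtype.ext (hOc t h2 k (congrArg Subtype.val hk))
      · exact hodd p Q hp2 hQp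
    · rcases hNf with ⟨f, hf, hk⟩ | ⟨f, hf, hk⟩ | ⟨f, hf, hk⟩
      · exact Or.inr (Or.inl ⟨f.comp (QuotientGroup.mk' O), hf.comp hπ, by rw [← hk]; rfl⟩)
      · exact Or.inr (Or.inr (Or.inl ⟨f.comp (QuotientGroup.mk' O), hf.comp hπ, by rw [← hk]; rfl⟩))
      · exact Or.inr (Or.inr (Or.inr (Or.inl ⟨f.comp (QuotientGroup.mk' O), hf.comp hπ, by rw [← hk]; rfl⟩)))

theorem six (h : FreeAct.{u, v} G) : ∃! N : Subgroup G, N.Normal ∧ (∀ (p : ℕ) [Fact p.Prime] (P : Sylow p N), IsCyclic P) ∧ Alt6 N := by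
  obtain ⟨A, i1, i2, i3, ρ, D⟩ := zd_of_free h
  have hz : ∀ N : Subgroup G, (∀ (p : ℕ) [Fact p.Prime] (P : Sylow p N), IsCyclic P) → IsZGroup N := by
    intro N hN
    rw [isZGroup_iff]
    intro p hp P
    haveI : Fact p.Prime := ⟨hp⟩
    exact hN p P
  have hex : ∃ N : Subgroup G, N.Normal ∧ IsZGroup N ∧ Alt6 N := by
    by_cases hs : Group.IsSolvable G
    · exact exists_solvable D hs
    · obtain ⟨x, y, hx, hy, h10⟩ := exists_ico h hs
      exact exists_nonsolvable D ⟨hx, hy, h10⟩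
  obtain ⟨N, hN, hNz, hNa⟩ := hex
  haveI : Fact (Nat.Prime 2) := ⟨Nat.prime_two⟩
  obtain ⟨u, v, huv⟩ := exists_gen D (default : Sylow 2 G)
  refine ⟨N, ⟨hN, fun p _ P => inferInstance, hNa⟩, ?_⟩
  rintro N' ⟨hN', hc', ha'⟩
  exact le_antisymm (unique hN' hN (hz N' hc') hNz ha'.alt hNa.alt _ u v huv)
    (unique hN hN' hNz (hz N' hc') hNa.alt ha'.alt _ u v huv)

end Cfsg.Agent.H2.Six
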