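import Mathlib
import Cfsg.Prelude.Def_Transfer
import Cfsg.Agent.H18.Xt2

/-! Extraspecial groups of odd order and exponent `p` are determined by their order. -/

set_option autoImplicit false

namespace Cfsg.Agent.H2.Xodd

open Cfsg.Agent.H18

/-- elementwise description: centre generated by `z` of prime order `p`, all commutators in it,
exponent `p` -/
structure Xo (p : ℕ) (E : Type*) [Group E] (z : E) : Prop where
  z_ne : z ≠ 1
  pow : ∀ x : E, x ^ p = 1
  z_comm : ∀ x : E, Commute z x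
  cent : ∀ x : E, (∀ y, Commute x y) → ∃ k : ℤ, x = z ^ k
  comm : ∀ x y : E, ∃ k : ℤ, x * y * x⁻¹ = z ^ k * y

def cen {E : Type*} [Group E] (x y : E) : Subgroup E := Subgroup.centralizer {x, y}

theorem mem_cen {E : Type*} [Group E] {x y c : E} : c ∈ cen x y ↔ Commute x c ∧ Commute y c := by
  unfold cen
  rw [Subgroup.mem_centralizer_iff]
  constructor
  · intro h
    exact ⟨h x (by simp), h y (by simp)⟩
  · rintro ⟨h1, h2⟩ g hg
    rcases hg with rfl | rfl
    · exact h1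
    · exact h2

section
variable {p : ℕ} [hp : Fact p.Prime] {E : Type*} [Group E] {z : E} (h : Xo p E z)
include h

theorem order_z : orderOf z = p := orderOf_eq_prime (h.pow z) h.z_ne

theorem zpow_eq_one {k : ℤ} : z ^ k = 1 ↔ (p : ℤ) ∣ k := by
  rw [← orderOf_dvd_iff_zpow_eq_one, order_z h]

theorem pow_z (x : E) (k : ℤ) (hk : (p : ℤ) ∣ k) : x ^ k = 1 := by
  obtain ⟨m, rfl⟩ := hk
  rw [zpow_mul, zpow_natCast, h.pow, one_zpow]

theorem zk_comm (k : ℤ) (x : E) : Commute (z ^ k) x := (h.z_comm x).zpow_left k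

theorem conj_mul {a b c : E} {k l : ℤ} (h1 : a * b * a⁻¹ = z ^ k * b)
    (h2 : a * c * a⁻¹ = z ^ l * c) : a * (b * c) * a⁻¹ = z ^ (k + l) * (b * c) := by
  have : a * (b * c) * a⁻¹ = (a * b * a⁻¹) * (a * c * a⁻¹) := by group
  rw [this, h1, h2, zpow_add]
  have h3 := (zk_comm h l b).eq
  calc z ^ k * b * (z ^ l * c) = z ^ k * (b * z ^ l) * c := by group
    _ = z ^ k * (z ^ l * b) * c := by rw [h3]
    _ = _ := by group

theorem conj_zpow' {a b : E} {k : ℤ} (h1 : a * b * a⁻¹ = z ^ k * b) (n : ℤ) :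
    a * b ^ n * a⁻¹ = z ^ (k * n) * b ^ n := by
  rw [← conj_zpow, h1, (zk_comm h k b).mul_zpow, zpow_mul]

theorem conj_comp {a a' b : E} {k l : ℤ} (h1 : a * b * a⁻¹ = z ^ k * b)
    (h2 : a' * b * a'⁻¹ = z ^ l * b) : (a * a') * b * (a * a')⁻¹ = z ^ (k + l) * b := by
  have h3 := (zk_comm h l a).eq
  calc (a * a') * b * (a * a')⁻¹ = a * (a' * b * a'⁻¹) * a⁻¹ := by group
    _ = a * (z ^ l * b) * a⁻¹ := by rw [h2]
    _ = (a * z ^ l) * b * a⁻¹ := by group
    _ = (z ^ l * a) * b * a⁻¹ := by rw [h3]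
    _ = z ^ l * (a * b * a⁻¹) := by group
    _ = z ^ l * (z ^ k * b) := by rw [h1]
    _ = z ^ (k + l) * b := by rw [← mul_assoc, ← zpow_add, add_comm]

theorem conj_symm {a b : E} {k : ℤ} (h1 : a * b * a⁻¹ = z ^ k * b) :
    b * a * b⁻¹ = z ^ (-k) * a := by
  have h3 := (zk_comm h (-k) b).eq
  have h2 : a * b = z ^ k * b * a := by rw [← h1]; group
  have h4 : b * a = z ^ (-k) * (a * b) := by
    rw [h2, zpow_neg]; group
  rw [h4]; group

theorem conj_zpow_left {a b : E} {k : ℤ} (h1 : a * b * a⁻¹ = z ^ k * b) (n : ℤ) :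
    a ^ n * b * (a ^ n)⁻¹ = z ^ (k * n) * b := by
  have h2 := conj_symm h (conj_zpow' h (conj_symm h h1) n)
  have e : -(-k * n) = k * n := by ring
  rw [e] at h2; exact h2

/-- the parametrisation -/
def F (x y : E) (i j : ℤ) (c : E) : E := x ^ i * y ^ j * c

omit h hp in
theorem commute_iff {a b : E} : Commute a b ↔ a * b * a⁻¹ = b := by
  constructor
  · intro hc; rw [hc.eq]; group
  · intro hc
    show a * b = b * a
    calc a * b = (a * b * a⁻¹) * a := by group
      _ = b * a := by rw [hc]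

theorem exists_rep {x y : E} (hxy : x * y * x⁻¹ = z ^ (1 : ℤ) * y) (g : E) :
    ∃ i j : ℤ, ∃ c ∈ cen x y, g = x ^ i * y ^ j * c := by
  obtain ⟨a, ha⟩ := h.comm x g
  obtain ⟨b, hb⟩ := h.comm y g
  -- [x, y ^ a] = z ^ a, [y, x ^ (-b)] = z ^ b
  have h1 : x * y ^ (-a) * x⁻¹ = z ^ (1 * -a) * y ^ (-a) := conj_zpow' h hxy (-a)
  have h2 : y * x * y⁻¹ = z ^ (-1 : ℤ) * x := conj_symm h hxy
  have h3 : y * x ^ b * y⁻¹ = z ^ (-1 * b) * x ^ b := conj_zpow' h h2 b
  have hxx : x * x ^ b * x⁻¹ = z ^ (0 : ℤ) * x ^ b := by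
    rw [zpow_zero, one_mul]; exact commute_iff.1 (Commute.self_zpow x b)
  have hyy : y * y ^ (-a) * y⁻¹ = z ^ (0 : ℤ) * y ^ (-a) := by
    rw [zpow_zero, one_mul]; exact commute_iff.1 (Commute.self_zpow y (-a))
  refine ⟨-b, a, y ^ (-a) * (x ^ b * g), ?_, by group⟩
  rw [mem_cen, commute_iff, commute_iff]
  constructor
  · rw [conj_mul h h1 (conj_mul h hxx ha)]
    have : (1 * -a + (0 + a) : ℤ) = 0 := by ring
    rw [this, zpow_zero, one_mul]
  · rw [conj_mul h hyy (conj_mul h h3 hb)]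
    have : (0 + (-1 * b + b) : ℤ) = 0 := by ring
    rw [this, zpow_zero, one_mul]

theorem rep_unique {x y : E} (hxy : x * y * x⁻¹ = z ^ (1 : ℤ) * y) {i j : ℤ} {c : E}
    (hc : c ∈ cen x y) (h1 : x ^ i * y ^ j * c = 1) : (p : ℤ) ∣ i ∧ (p : ℤ) ∣ j ∧ c = 1 := by
  rw [mem_cen, commute_iff, commute_iff] at hc
  have hyx : y * x * y⁻¹ = z ^ (-1 : ℤ) * x := conj_symm h hxy
  have e1 := conj_mul h (conj_mul h (by
    rw [zpow_zero, one_mul]; exact commute_iff.1 (Commute.self_zpow x i) :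
      x * x ^ i * x⁻¹ = z ^ (0 : ℤ) * x ^ i) (conj_zpow' h hxy j))
      (by rw [zpow_zero, one_mul]; exact hc.1 : x * c * x⁻¹ = z ^ (0 : ℤ) * c)
  have e2 := conj_mul h (conj_mul h (conj_zpow' h hyx i) (by
    rw [zpow_zero, one_mul]; exact commute_iff.1 (Commute.self_zpow y j) :
      y * y ^ j * y⁻¹ = z ^ (0 : ℤ) * y ^ j))
      (by rw [zpow_zero, one_mul]; exact hc.2 : y * c * y⁻¹ = z ^ (0 : ℤ) * c)
  rw [h1] at e1 e2
  simp only [mul_one, mul_inv_cancel] at e1 e2
  have d1 : (p : ℤ) ∣ j := by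
    have := (zpow_eq_one h).1 e1.symm
    simpa using this
  have d2 : (p : ℤ) ∣ i := by
    have := (zpow_eq_one h).1 e2.symm
    simpa using this
  refine ⟨d2, d1, ?_⟩
  rw [pow_z h x i d2, pow_z h y j d1] at h1
  simpa using h1

theorem rep_mul {x y : E} (hxy : x * y * x⁻¹ = z ^ (1 : ℤ) * y) {i j i' j' : ℤ} {c c' : E}
    (hc : c ∈ cen x y) :
    (x ^ i * y ^ j * c) * (x ^ i' * y ^ j' * c') =
      x ^ (i + i') * y ^ (j + j') * (z ^ (-(j * i')) * c * c') := by
  rw [mem_cen] at hc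
  have h1 : y ^ j * x ^ i' = z ^ (-(j * i')) * (x ^ i' * y ^ j) := by
    have h2 : y * x * y⁻¹ = z ^ (-1 : ℤ) * x := conj_symm h hxy
    have h3 := conj_zpow_left h (conj_zpow' h h2 i') j
    have h4 : y ^ j * x ^ i' = z ^ (-1 * i' * j) * x ^ i' * y ^ j := by rw [← h3]; group
    rw [h4, mul_assoc]
    congr 2; ring
  have h5 : Commute c (x ^ i' * y ^ j') :=
    ((hc.1.zpow_left i').mul_left (hc.2.zpow_left j')).symm
  calc (x ^ i * y ^ j * c) * (x ^ i' * y ^ j' * c')
      = x ^ i * y ^ j * (c * (x ^ i' * y ^ j')) * c' := by group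
    _ = x ^ i * y ^ j * ((x ^ i' * y ^ j') * c) * c' := by rw [h5.eq]
    _ = x ^ i * (y ^ j * x ^ i') * y ^ j' * c * c' := by group
    _ = x ^ i * (z ^ (-(j * i')) * (x ^ i' * y ^ j)) * y ^ j' * c * c' := by rw [h1]
    _ = (x ^ i * z ^ (-(j * i'))) * (x ^ i' * y ^ j * y ^ j') * c * c' := by group
    _ = (z ^ (-(j * i')) * x ^ i) * (x ^ i' * y ^ j * y ^ j') * c * c' := by
        rw [(zk_comm h _ (x ^ i)).eq]
    _ = z ^ (-(j * i')) * (x ^ (i + i') * y ^ (j + j')) * c * c' := by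
        rw [zpow_add, zpow_add]; group
    _ = (x ^ (i + i') * y ^ (j + j')) * z ^ (-(j * i')) * c * c' := by
        rw [(zk_comm h _ _).eq]
    _ = _ := by group

theorem cen_xo {x y : E} (hxy : x * y * x⁻¹ = z ^ (1 : ℤ) * y) :
    ∃ hz : z ∈ cen x y, Xo p (cen x y) ⟨z, hz⟩ := by
  have hz : z ∈ cen x y := mem_cen.2 ⟨(h.z_comm x).symm, (h.z_comm y).symm⟩
  refine ⟨hz, ⟨?_, ?_, ?_, ?_, ?_⟩⟩
  · intro h1; exact h.z_ne (congrArg Subtype.val h1)
  · intro a; exact Subtype.ext (h.pow a)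
  · intro a; exact Subtype.ext (h.z_comm a).eq
  · rintro ⟨c, hc⟩ hcc
    have h1 : ∀ d ∈ cen x y, Commute c d := fun d hd =>
      congrArg Subtype.val (hcc ⟨d, hd⟩).eq
    have h2 : ∀ g, Commute c g := by
      intro g
      obtain ⟨i, j, d, hd, rfl⟩ := exists_rep h hxy g
      have h3 := mem_cen.1 hc
      exact ((h3.1.symm.zpow_right i).mul_right (h3.2.symm.zpow_right j)).mul_right (h1 d hd)
    obtain ⟨k, hk⟩ := h.cent c h2
    exact ⟨k, Subtype.ext (by simpa using hk)⟩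
  · rintro ⟨c, hc⟩ ⟨d, hd⟩
    obtain ⟨k, hk⟩ := h.comm c d
    exact ⟨k, Subtype.ext (by simpa using hk)⟩

theorem card_cen [Finite E] {x y : E} (hxy : x * y * x⁻¹ = z ^ (1 : ℤ) * y) :
    Nat.card E = p * (p * Nat.card (cen x y)) := by
  have hb : Function.Bijective (fun t : Fin p × Fin p × cen x y =>
      x ^ ((t.1 : ℕ) : ℤ) * y ^ ((t.2.1 : ℕ) : ℤ) * (t.2.2 : E)) := by
    constructor
    · rintro ⟨i, j, c, hc⟩ ⟨i', j', c', hc'⟩ he
      simp only at he
      -- F i j c = F i' j' c'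
      have h0 : x ^ ((i : ℕ) : ℤ) * y ^ ((j : ℕ) : ℤ) * c =
        x ^ ((i' : ℕ) : ℤ) * y ^ ((j' : ℕ) : ℤ) * c' := he
      -- multiply: find d in cen with F i' j' c' * F a b d = 1
      set g := x ^ ((i' : ℕ) : ℤ) * y ^ ((j' : ℕ) : ℤ) * c' with hg
      obtain ⟨a, b, d, hd, hgd⟩ := exists_rep h hxy g⁻¹
      have e1 : g * g⁻¹ = 1 := mul_inv_cancel g
      have e2 : (x ^ ((i : ℕ) : ℤ) * y ^ ((j : ℕ) : ℤ) * c) * g⁻¹ = 1 := by rw [h0]; exact e1
      rw [hgd] at e1 e2
      rw [hg, rep_mul h hxy hc'] at e1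
      rw [rep_mul h hxy hc] at e2
      have hzc : ∀ k : ℤ, z ^ k ∈ cen x y := fun k =>
        Subgroup.zpow_mem _ (mem_cen.2 ⟨(h.z_comm x).symm, (h.z_comm y).symm⟩) k
      have r1 := rep_unique h hxy (mul_mem (mul_mem (hzc _) hc') hd) e1
      have r2 := rep_unique h hxy (mul_mem (mul_mem (hzc _) hc) hd) e2
      have hi : (p : ℤ) ∣ (i : ℕ) - (i' : ℕ) := by
        have := dvd_sub r2.1 r1.1
        have e : ((i : ℕ) : ℤ) + a - ((i' : ℕ) + a) = (i : ℕ) - (i' : ℕ) := by ring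
        rwa [e] at this
      have hj : (p : ℤ) ∣ (j : ℕ) - (j' : ℕ) := by
        have := dvd_sub r2.2.1 r1.2.1
        have e : ((j : ℕ) : ℤ) + b - ((j' : ℕ) + b) = (j : ℕ) - (j' : ℕ) := by ring
        rwa [e] at this
      have hi' : i = i' := by
        have h1 := i.2; have h2 := i'.2
        apply Fin.ext
        obtain ⟨m, hm⟩ := hi
        have : m = 0 := by
          by_contra hm0
          rcases lt_or_gt_of_ne hm0 with h3 | h3
          · have : (p : ℤ) * m ≤ p * (-1) := by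
              apply mul_le_mul_of_nonneg_left (by omega) (by omega)
            omega
          · have : (p : ℤ) * 1 ≤ p * m := by
              apply mul_le_mul_of_nonneg_left (by omega) (by omega)
            omega
        rw [this] at hm; omega
      have hj' : j = j' := by
        have h1 := j.2; have h2 := j'.2
        apply Fin.ext
        obtain ⟨m, hm⟩ := hj
        have : m = 0 := by
          by_contra hm0
          rcases lt_or_gt_of_ne hm0 with h3 | h3
          · have : (p : ℤ) * m ≤ p * (-1) := by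
              apply mul_le_mul_of_nonneg_left (by omega) (by omega)
            omega
          · have : (p : ℤ) * 1 ≤ p * m := by
              apply mul_le_mul_of_nonneg_left (by omega) (by omega)
            omega
        rw [this] at hm; omega
      subst hi' hj'
      have : c = c' := mul_left_cancel h0
      subst this
      rfl
    · intro g
      obtain ⟨i, j, c, hc, rfl⟩ := exists_rep h hxy g
      have hp0 : (p : ℤ) ≠ 0 := by exact_mod_cast hp.out.ne_zero
      have hpp : (0 : ℤ) < p := by exact_mod_cast hp.out.pos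
      have key : ∀ (w : E) (k : ℤ), w ^ (((k % p).toNat : ℕ) : ℤ) = w ^ k := by
        intro w k
        rw [Int.toNat_of_nonneg (Int.emod_nonneg k hp0)]
        conv_rhs => rw [← Int.emod_add_mul_ediv k p]
        rw [zpow_add, pow_z h w ((p : ℤ) * (k / p)) (dvd_mul_right _ _), mul_one]
      refine ⟨(⟨(i % p).toNat, ?_⟩, ⟨(j % p).toNat, ?_⟩, ⟨c, hc⟩), ?_⟩
      · have := Int.emod_lt_of_pos i hpp
        omega
      · have := Int.emod_lt_of_pos j hpp
        omega
      · simp only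
        rw [key, key]
  rw [← Nat.card_congr (Equiv.ofBijective _ hb), Nat.card_prod, Nat.card_prod]
  simp

end
end Cfsg.Agent.H2.Xodd
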